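/-
Quadratic maps on special 2-groups with equidistributed squares: Gauss sums and counting.
-/
import Mathlib

set_option autoImplicit false
set_option linter.style.haveILetI false
set_option linter.unusedSectionVars false

namespace Cfsg.Agent.Lib.TwoAuto.Count

open Finset
open scoped commutatorElement

variable {Y : Type*} [Group Y]

/-- `E` is a central subgroup of exponent two containing all squares, all commutators and
all elements whose square is trivial. -/
structure Sp (E : Subgroup Y) : Prop where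
  central : ∀ z ∈ E, ∀ u : Y, z * u = u * z
  two : ∀ z ∈ E, z * z = 1
  sq : ∀ u : Y, u * u ∈ E
  comm : ∀ u v : Y, ⁅u, v⁆ ∈ E
  aniso : ∀ u : Y, u * u = 1 → u ∈ E

namespace Sp

variable {E : Subgroup Y} (hE : Sp E)
include hE

lemma comm_central (z u : Y) (hz : z ∈ E) : ⁅z, u⁆ = 1 := by
  rw [commutatorElement_def, hE.central z hz u]
  group

lemma comm_central' (z u : Y) (hz : z ∈ E) : ⁅u, z⁆ = 1 := by
  rw [commutatorElement_def, ← hE.central z hz u]
  group

lemma comm_mul_right (u v w : Y) : ⁅u, v * w⁆ = ⁅u, v⁆ * ⁅u, w⁆ := by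
  have h := hE.central _ (hE.comm u w) v
  calc ⁅u, v * w⁆ = (u * v * u⁻¹) * (u * w * u⁻¹ * w⁻¹) * v⁻¹ := by
        rw [commutatorElement_def]; group
    _ = (u * v * u⁻¹) * (⁅u, w⁆ * v⁻¹) := by rw [commutatorElement_def]; group
    _ = (u * v * u⁻¹) * (v⁻¹ * ⁅u, w⁆) := by
        rw [hE.central _ (hE.comm u w) v⁻¹]
    _ = ⁅u, v⁆ * ⁅u, w⁆ := by
        rw [commutatorElement_def u v]; group

lemma comm_mul_left (u v w : Y) : ⁅u * w, v⁆ = ⁅u, v⁆ * ⁅w, v⁆ := by
  have h := hE.central _ (hE.comm w v) u⁻¹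
  calc ⁅u * w, v⁆ = u * (w * v * w⁻¹ * v⁻¹) * (v * u⁻¹ * v⁻¹) := by
        rw [commutatorElement_def]; group
    _ = u * ⁅w, v⁆ * (v * u⁻¹ * v⁻¹) := by rw [commutatorElement_def]
    _ = ⁅w, v⁆ * (u * v * u⁻¹ * v⁻¹) := by
        rw [← hE.central _ (hE.comm w v) u]; simp only [mul_assoc]
    _ = ⁅w, v⁆ * ⁅u, v⁆ := by rw [commutatorElement_def u v]
    _ = ⁅u, v⁆ * ⁅w, v⁆ := hE.central _ (hE.comm w v) _

lemma comm_symm (u v : Y) : ⁅v, u⁆ = ⁅u, v⁆ := by
  have h1 : ⁅v, u⁆ = ⁅u, v⁆⁻¹ := (commutatorElement_inv u v).symm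
  rw [h1]
  exact inv_eq_of_mul_eq_one_left (hE.two _ (hE.comm u v))

lemma swap_eq (u v : Y) : v * u = ⁅v, u⁆ * u * v := by
  rw [commutatorElement_def]; group

/-- Squares of products. -/
lemma sq_mul (u v : Y) : (u * v) * (u * v) = ⁅v, u⁆ * ((u * u) * (v * v)) := by
  calc (u * v) * (u * v) = u * (v * u) * v := by group
    _ = u * (⁅v, u⁆ * u * v) * v := by rw [← hE.swap_eq]
    _ = (u * ⁅v, u⁆) * u * v * v := by group
    _ = (⁅v, u⁆ * u) * u * v * v := by rw [hE.central _ (hE.comm v u) u]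
    _ = ⁅v, u⁆ * ((u * u) * (v * v)) := by group

/-- Commuting elements. -/
lemma sq_mul_comm (u v : Y) (h : u * v = v * u) : (u * v) * (u * v) = (u * u) * (v * v) := by
  calc (u * v) * (u * v) = u * (v * u) * v := by group
    _ = u * (u * v) * v := by rw [h]
    _ = (u * u) * (v * v) := by group

lemma mul_self_comm_E (a b : Y) (ha : a ∈ E) : a * b = b * a := hE.central a ha b

/-- The key identity: `u² (u w)² = [w,u] w²`. -/
lemma sq_mul_sq (u w : Y) : (u * u) * ((u * w) * (u * w)) = ⁅w, u⁆ * (w * w) := by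
  rw [hE.sq_mul]
  have h1 : (u * u) * (⁅w, u⁆ * ((u * u) * (w * w))) = ⁅w, u⁆ * ((u * u) * (u * u)) * (w * w) := by
    have h2 := hE.central _ (hE.comm w u) (u * u)
    calc (u * u) * (⁅w, u⁆ * ((u * u) * (w * w))) = ((u * u) * ⁅w, u⁆) * ((u * u) * (w * w)) := by group
      _ = (⁅w, u⁆ * (u * u)) * ((u * u) * (w * w)) := by rw [h2]
      _ = ⁅w, u⁆ * ((u * u) * (u * u)) * (w * w) := by group
  rw [h1, hE.two _ (hE.sq u), mul_one]

end Sp

/-- `H` is a hyperplane of `E` missing `z₀`. -/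
structure IsHyper (E H : Subgroup Y) (z₀ : Y) : Prop where
  le : H ≤ E
  mem : z₀ ∈ E
  not_mem : z₀ ∉ H
  split : ∀ a ∈ E, a ∈ H ∨ a * z₀ ∈ H

open Classical in
/-- The sign attached to a hyperplane. -/
noncomputable def chi (H : Subgroup Y) (y : Y) : ℤ := if y ∈ H then 1 else -1

lemma chi_of_mem {H : Subgroup Y} {y : Y} (h : y ∈ H) : chi H y = 1 := by
  simp [chi, h]

lemma chi_of_not_mem {H : Subgroup Y} {y : Y} (h : y ∉ H) : chi H y = -1 := by
  simp [chi, h]

lemma chi_eq_one_iff {H : Subgroup Y} {y : Y} : chi H y = 1 ↔ y ∈ H := by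
  by_cases h : y ∈ H
  · simp [chi, h]
  · simp [chi, h]

lemma chi_ne_zero (H : Subgroup Y) (y : Y) : chi H y = 1 ∨ chi H y = -1 := by
  by_cases h : y ∈ H
  · left; exact chi_of_mem h
  · right; exact chi_of_not_mem h

section hyper

variable {E H : Subgroup Y} {z₀ : Y}

lemma IsHyper.chi_mul (hE : Sp E) (hH : IsHyper E H z₀) {a b : Y} (ha : a ∈ E) (hb : b ∈ E) :
    chi H (a * b) = chi H a * chi H b := by
  have htwo := hE.two z₀ hH.mem
  by_cases h1 : a ∈ H
  · by_cases h2 : b ∈ H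
    · rw [chi_of_mem h1, chi_of_mem h2, chi_of_mem (H.mul_mem h1 h2)]; rfl
    · rw [chi_of_mem h1, chi_of_not_mem h2, chi_of_not_mem]
      · rfl
      · intro h3
        apply h2
        have := H.mul_mem (H.inv_mem h1) h3
        simpa using this
  · by_cases h2 : b ∈ H
    · rw [chi_of_not_mem h1, chi_of_mem h2, chi_of_not_mem]
      · rfl
      · intro h3
        apply h1
        have := H.mul_mem h3 (H.inv_mem h2)
        simpa using this
    · rw [chi_of_not_mem h1, chi_of_not_mem h2, chi_of_mem]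
      · rfl
      · have h3 := (hH.split a ha).resolve_left h1
        have h4 := (hH.split b hb).resolve_left h2
        have h5 := H.mul_mem h3 h4
        have h6 : a * z₀ * (b * z₀) = a * b * (z₀ * z₀) := by
          calc a * z₀ * (b * z₀) = a * (z₀ * b) * z₀ := by group
            _ = a * (b * z₀) * z₀ := by rw [hE.central z₀ hH.mem b]
            _ = a * b * (z₀ * z₀) := by group
        rw [h6, htwo, mul_one] at h5
        exact h5

variable [Fintype Y]

open Classical in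
/-- The sum of the sign over `E` vanishes. -/
lemma IsHyper.sum_chi (hE : Sp E) (hH : IsHyper E H z₀) : ∑ z : E, chi H (z : Y) = 0 := by
  have h1 : ∑ z : E, chi H (z : Y) = ∑ z : E, chi H ((z * ⟨z₀, hH.mem⟩ : E) : Y) :=
    (Equiv.sum_comp (Equiv.mulRight (⟨z₀, hH.mem⟩ : E)) (fun z : E => chi H (z : Y))).symm
  have h2 : ∀ z : E, chi H ((z * ⟨z₀, hH.mem⟩ : E) : Y) = - chi H (z : Y) := by
    intro z
    change chi H ((z : Y) * z₀) = _
    rw [hH.chi_mul hE z.2 hH.mem, chi_of_not_mem hH.not_mem]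
    ring
  simp_rw [h2] at h1
  rw [Finset.sum_neg_distrib] at h1
  linarith

/-- Sum of a multiplicative sign over a group. -/
lemma sum_sign {A : Type*} [Group A] [Fintype A] (f : A → ℤ) (hf : ∀ a b, f (a * b) = f a * f b)
    (hf1 : ∀ a, f a = 1 ∨ f a = -1) :
    ∑ a, f a = (if ∀ a, f a = 1 then (Fintype.card A : ℤ) else 0) := by
  classical
  split_ifs with h
  · simp [h]
  · push Not at h
    obtain ⟨a₀, ha₀⟩ := h
    have h2 : f a₀ = -1 := (hf1 a₀).resolve_left ha₀
    have h3 : ∑ a, f a = ∑ a, f (a₀ * a) := (Equiv.sum_comp (Equiv.mulLeft a₀) f).symm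
    simp_rw [hf, h2] at h3
    rw [← Finset.mul_sum] at h3
    linarith

open Classical in
/-- The Gauss sum identity. -/
lemma IsHyper.gauss (hE : Sp E) (hH : IsHyper E H z₀) :
    (∑ u : Y, chi H (u * u)) ^ 2 =
      (Fintype.card Y : ℤ) * ∑ w : Y, (if ∀ u : Y, ⁅w, u⁆ ∈ H then chi H (w * w) else 0) := by
  have h1 : (∑ u : Y, chi H (u * u)) ^ 2 = ∑ u : Y, ∑ w : Y, chi H ⁅w, u⁆ * chi H (w * w) := by
    rw [sq, Finset.sum_mul]
    apply Finset.sum_congr rfl
    intro u _
    rw [Finset.mul_sum]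
    have h2 : ∑ v : Y, chi H (u * u) * chi H (v * v) =
        ∑ w : Y, chi H (u * u) * chi H ((u * w) * (u * w)) :=
      (Equiv.sum_comp (Equiv.mulLeft u) (fun v : Y => chi H (u * u) * chi H (v * v))).symm
    rw [h2]
    apply Finset.sum_congr rfl
    intro w _
    rw [← hH.chi_mul hE (hE.sq u) (hE.sq _), hE.sq_mul_sq, hH.chi_mul hE (hE.comm _ _) (hE.sq _)]
  rw [h1, Finset.sum_comm, Finset.mul_sum]
  apply Finset.sum_congr rfl
  intro w _
  rw [← Finset.sum_mul]
  have h3 := sum_sign (fun u : Y => chi H ⁅w, u⁆)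
    (by
      intro a b
      change chi H ⁅w, a * b⁆ = _
      rw [hE.comm_mul_right, hH.chi_mul hE (hE.comm _ _) (hE.comm _ _)])
    (fun a => chi_ne_zero H _)
  rw [h3]
  by_cases h4 : ∀ u : Y, ⁅w, u⁆ ∈ H
  · rw [if_pos h4, if_pos (fun a => chi_of_mem (h4 a))]
  · rw [if_neg h4, if_neg, zero_mul, mul_zero]
    intro h5
    exact h4 (fun u => chi_eq_one_iff.1 (h5 u))

open Classical in
/-- The radical sum. -/
lemma IsHyper.rad_sum (hE : Sp E) (hH : IsHyper E H z₀)
    (hne : ∑ w : Y, (if ∀ u : Y, ⁅w, u⁆ ∈ H then chi H (w * w) else 0) ≠ 0) :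
    (∑ w : Y, (if ∀ u : Y, ⁅w, u⁆ ∈ H then chi H (w * w) else 0)) =
      (Finset.univ.filter (fun w : Y => ∀ u : Y, ⁅w, u⁆ ∈ H)).card := by
  -- the radical as a subgroup
  let R : Subgroup Y :=
    { carrier := {w | ∀ u : Y, ⁅w, u⁆ ∈ H}
      one_mem' := by
        intro u
        simp
      mul_mem' := by
        intro a b ha hb u
        rw [hE.comm_mul_left]
        exact H.mul_mem (ha u) (hb u)
      inv_mem' := by
        intro a ha u
        have h1 : ⁅a⁻¹, u⁆ * ⁅a, u⁆ = 1 := by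
          rw [← hE.comm_mul_left]
          simp
        have h2 : ⁅a⁻¹, u⁆ = ⁅a, u⁆⁻¹ := eq_inv_of_mul_eq_one_left h1
        rw [h2]
        exact H.inv_mem (ha u) }
  have hR : ∀ w, w ∈ R ↔ ∀ u : Y, ⁅w, u⁆ ∈ H := fun w => Iff.rfl
  have h1 : ∑ w : Y, (if ∀ u : Y, ⁅w, u⁆ ∈ H then chi H (w * w) else 0) = ∑ w : R, chi H ((w : Y) * w) := by
    rw [← Finset.sum_filter]
    apply Finset.sum_subtype
    intro x
    simp [hR]
  have h2 := sum_sign (fun w : R => chi H ((w : Y) * w))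
    (by
      intro a b
      change chi H (((a : Y) * b) * ((a : Y) * b)) = _
      rw [hE.sq_mul, hH.chi_mul hE (hE.comm _ _) (E.mul_mem (hE.sq _) (hE.sq _)),
        chi_of_mem ((hR _).1 b.2 a), one_mul, hH.chi_mul hE (hE.sq _) (hE.sq _)])
    (fun a => chi_ne_zero H _)
  rw [h1] at hne ⊢
  rw [h2] at hne ⊢
  split_ifs at hne ⊢ with h3
  · have h4 : (Finset.univ.filter (fun w : Y => ∀ u : Y, ⁅w, u⁆ ∈ H)).card = Fintype.card R :=
      (Fintype.card_of_subtype _ (by simp [hR])).symm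
    rw [h4]
  · exact absurd rfl hne

end hyper

/-- The radical of a hyperplane. -/
def rad {E : Subgroup Y} (hE : Sp E) (H : Subgroup Y) : Subgroup Y where
  carrier := {w | ∀ u : Y, ⁅w, u⁆ ∈ H}
  one_mem' := by
    intro u
    simp
  mul_mem' := by
    intro a b ha hb u
    rw [hE.comm_mul_left]
    exact H.mul_mem (ha u) (hb u)
  inv_mem' := by
    intro a ha u
    have h1 : ⁅a⁻¹, u⁆ * ⁅a, u⁆ = 1 := by
      rw [← hE.comm_mul_left]
      simp
    have h2 : ⁅a⁻¹, u⁆ = ⁅a, u⁆⁻¹ := eq_inv_of_mul_eq_one_left h1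
    rw [h2]
    exact H.inv_mem (ha u)

lemma mem_rad {E : Subgroup Y} (hE : Sp E) (H : Subgroup Y) (w : Y) :
    w ∈ rad hE H ↔ ∀ u : Y, ⁅w, u⁆ ∈ H := Iff.rfl

lemma le_rad {E : Subgroup Y} (hE : Sp E) (H : Subgroup Y) : E ≤ rad hE H := by
  intro z hz u
  rw [hE.comm_central z u hz]
  exact H.one_mem

/-- Existence of hyperplanes. -/
lemma exists_hyper [Finite Y] {E I : Subgroup Y} (hE : Sp E) (hI : I ≤ E) {z₀ : Y} (hz₀ : z₀ ∈ E)
    (hn : z₀ ∉ I) : ∃ H : Subgroup Y, I ≤ H ∧ IsHyper E H z₀ := by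
  classical
  let F : Set (Subgroup Y) := {H | I ≤ H ∧ H ≤ E ∧ z₀ ∉ H}
  have hF : F.Nonempty := ⟨I, le_rfl, hI, hn⟩
  obtain ⟨H, ⟨hH1, hH2, hH3⟩, hmax⟩ := (wellFounded_gt (α := Subgroup Y)).has_min F hF
  refine ⟨H, hH1, hH2, hz₀, hH3, ?_⟩
  intro a ha
  by_contra hcon
  push Not at hcon
  obtain ⟨h1, h2⟩ := hcon
  have hac : ∀ x, a * x = x * a := hE.central a ha
  have haa : a * a = 1 := hE.two a ha
  let H' : Subgroup Y :=
    { carrier := {x | x ∈ H ∨ x * a ∈ H}
      one_mem' := Or.inl H.one_mem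
      mul_mem' := by
        rintro x y (hx | hx) (hy | hy)
        · exact Or.inl (H.mul_mem hx hy)
        · right
          rw [mul_assoc]
          exact H.mul_mem hx hy
        · right
          have : x * y * a = x * a * y := by
            rw [mul_assoc, mul_assoc, hac y]
          rw [this]
          exact H.mul_mem hx hy
        · left
          have h3 := H.mul_mem hx hy
          have : x * a * (y * a) = x * y := by
            calc x * a * (y * a) = x * (a * y) * a := by group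
              _ = x * (y * a) * a := by rw [hac y]
              _ = x * y * (a * a) := by group
              _ = x * y := by rw [haa, mul_one]
          rwa [this] at h3
      inv_mem' := by
        rintro x (hx | hx)
        · exact Or.inl (H.inv_mem hx)
        · right
          have h3 := H.inv_mem hx
          have : (x * a)⁻¹ = x⁻¹ * a := by
            rw [mul_inv_rev]
            have : a⁻¹ = a := inv_eq_of_mul_eq_one_left haa
            rw [this, hac]
          rwa [this] at h3 }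
  have hle : H ≤ H' := fun x hx => Or.inl hx
  have haH' : a ∈ H' := Or.inr (by rw [haa]; exact H.one_mem)
  have hlt : H' > H := lt_of_le_of_ne hle (fun h => h1 (by rw [h]; exact haH'))
  have hz : z₀ ∈ H' := by
    by_contra hz
    apply hmax H' ⟨hH1.trans hle, ?_, hz⟩ hlt
    rintro x (hx | hx)
    · exact hH2 hx
    · have h3 := E.mul_mem (hH2 hx) ha
      rwa [mul_assoc, haa, mul_one] at h3
  rcases hz with hz | hz
  · exact hH3 hz
  · apply h2
    rw [hac]
    exact hz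

section numeric

/-- The arithmetic of the Gauss sum. -/
lemma numeric {m n a : ℕ} (hm : 1 ≤ m) (h : 2 ^ a * (2 ^ m - 1) + 2 ^ m = 2 ^ n) : a = m ∧ n = 2 * m := by
  have h1 : 2 ≤ 2 ^ m := by
    calc 2 = 2 ^ 1 := rfl
      _ ≤ 2 ^ m := Nat.pow_le_pow_right (by norm_num) hm
  have hodd : ∀ k, 1 ≤ k → Nat.Coprime 2 (2 ^ k - 1) := by
    intro k hk
    have : Odd (2 ^ k - 1) := by
      have h2 : 2 ≤ 2 ^ k := by
        calc 2 = 2 ^ 1 := rfl
          _ ≤ 2 ^ k := Nat.pow_le_pow_right (by norm_num) hk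
      obtain ⟨c, hc⟩ : 2 ∣ 2 ^ k := dvd_pow_self 2 (by omega)
      exact ⟨c - 1, by omega⟩
    exact (Nat.coprime_two_left).2 this
  have hpos : 0 < 2 ^ a * (2 ^ m - 1) := Nat.mul_pos (by positivity) (by omega)
  have hnm : m < n := by
    apply (Nat.pow_lt_pow_iff_right (a := 2) (by norm_num)).1
    omega
  obtain ⟨d, rfl⟩ : ∃ d, n = m + d := ⟨n - m, by omega⟩
  have hd : 1 ≤ d := by omega
  have h2 : 2 ^ a * (2 ^ m - 1) = 2 ^ m * (2 ^ d - 1) := by
    have h3 : 2 ^ (m + d) = 2 ^ m * 2 ^ d := pow_add 2 m d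
    have h4 : 1 ≤ 2 ^ d := Nat.one_le_two_pow
    have h5 : 2 ^ m * (2 ^ d - 1) = 2 ^ m * 2 ^ d - 2 ^ m := by
      rw [Nat.mul_sub, mul_one]
    omega
  have h3 : m ≤ a := by
    have h4 : 2 ^ m ∣ 2 ^ a * (2 ^ m - 1) := ⟨_, h2⟩
    have h5 : Nat.Coprime (2 ^ m) (2 ^ m - 1) := Nat.Coprime.pow_left _ (hodd m hm)
    have h6 := h5.dvd_of_dvd_mul_right h4
    exact (Nat.pow_dvd_pow_iff_le_right (by norm_num)).1 h6
  have h4 : a ≤ m := by
    have h4 : 2 ^ a ∣ 2 ^ m * (2 ^ d - 1) := ⟨_, h2.symm⟩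
    have h5 : Nat.Coprime (2 ^ a) (2 ^ d - 1) := Nat.Coprime.pow_left _ (hodd d hd)
    have h6 := h5.dvd_of_dvd_mul_right h4
    exact (Nat.pow_dvd_pow_iff_le_right (by norm_num)).1 h6
  have h5 : a = m := le_antisymm h4 h3
  subst h5
  have h6 : 2 ^ a - 1 = 2 ^ d - 1 := Nat.eq_of_mul_eq_mul_left (by positivity) h2
  have h7 : 2 ^ a = 2 ^ d := by
    have h8 : 1 ≤ 2 ^ a := Nat.one_le_two_pow
    have h9 : 1 ≤ 2 ^ d := Nat.one_le_two_pow
    omega
  have h8 : a = d := Nat.pow_right_injective (le_refl 2) h7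
  exact ⟨rfl, by omega⟩

end numeric

section structure_thm

variable [Fintype Y] {E : Subgroup Y}

open Classical in
/-- The number of square roots. -/
noncomputable def fib (z : Y) : ℕ := (univ.filter (fun u : Y => u * u = z)).card

open Classical in
lemma fib_one (hE : Sp E) : fib (1 : Y) = Nat.card E := by
  rw [Nat.card_eq_fintype_card]
  unfold fib
  rw [Fintype.card_of_subtype]
  intro x
  simp only [mem_filter, mem_univ, true_and]
  exact ⟨fun h => hE.aniso x h, fun h => hE.two x h⟩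

open Classical in
/-- Summation through squares. -/
lemma sum_sq (hE : Sp E) (g : Y → ℤ) : ∑ u : Y, g (u * u) = ∑ z : E, (fib (z : Y) : ℤ) * g z := by
  let q : Y → E := fun u => ⟨u * u, hE.sq u⟩
  have h1 := Finset.sum_fiberwise (Finset.univ : Finset Y) q (fun u => g (u * u))
  rw [← h1]
  apply Finset.sum_congr rfl
  intro z _
  have h2 : ∀ u ∈ (univ.filter (fun u : Y => q u = z)), g (u * u) = g z := by
    intro u hu
    have h3 : q u = z := (mem_filter.1 hu).2
    have h4 : u * u = z := congrArg Subtype.val h3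
    rw [h4]
  rw [Finset.sum_congr rfl h2, Finset.sum_const, nsmul_eq_mul]
  congr 2
  unfold fib
  congr 1
  ext u
  simp only [mem_filter, mem_univ, true_and]
  exact ⟨fun h => congrArg Subtype.val h, fun h => Subtype.ext h⟩

open Classical in
/-- Summation through squares, uniform case. -/
lemma sum_sq' (hE : Sp E) {F : ℕ} (hF : ∀ z ∈ E, z ≠ 1 → fib z = F) (g : Y → ℤ) :
    ∑ u : Y, g (u * u) = (F : ℤ) * ∑ z : E, g z + ((Nat.card E : ℤ) - F) * g 1 := by
  rw [sum_sq hE]
  have h1 : ∀ z : E, (fib (z : Y) : ℤ) * g z =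
      (F : ℤ) * g z + (if z = 1 then ((Nat.card E : ℤ) - F) * g 1 else 0) := by
    intro z
    by_cases hz : z = 1
    · subst hz
      rw [if_pos rfl]
      change (fib (1 : Y) : ℤ) * g 1 = (F : ℤ) * g 1 + _
      rw [fib_one hE]
      ring
    · rw [if_neg hz, add_zero, hF z z.2 (fun h => hz (Subtype.ext h))]
  simp_rw [h1]
  rw [Finset.sum_add_distrib, ← Finset.mul_sum]
  simp

/-- Everything follows from the uniform distribution of squares. -/
theorem structure_of_uniform [Fact (Nat.Prime 2)] (hE : Sp E) {F : ℕ} (hF : ∀ z ∈ E, z ≠ 1 → fib z = F)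
    (hFe : F ≠ Nat.card E) {y₀ : Y} (hy₀ : y₀ ∉ E) :
    Fintype.card Y = (Nat.card E) ^ 3 ∧ F = (Nat.card E) ^ 2 + Nat.card E ∧
      ∀ w, w ∉ E → ∀ z ∈ E, ∃ u, ⁅w, u⁆ = z := by
  classical
  -- `Y` is a 2-group
  have hY2 : IsPGroup 2 Y := by
    intro g
    refine ⟨2, ?_⟩
    have h1 := hE.two _ (hE.sq g)
    calc g ^ 2 ^ 2 = g ^ 2 * g ^ 2 := by rw [show (2 : ℕ) ^ 2 = 2 + 2 by norm_num, pow_add]
      _ = (g * g) * (g * g) := by rw [sq]
      _ = 1 := h1
  obtain ⟨n, hn⟩ := IsPGroup.iff_card.1 hY2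
  obtain ⟨m, hm⟩ := IsPGroup.iff_card.1 (hY2.to_subgroup E)
  set e := Nat.card E with he
  -- `E` is not trivial
  have hz₁ : y₀ * y₀ ≠ 1 := fun h => hy₀ (hE.aniso y₀ h)
  have hz₁E : y₀ * y₀ ∈ E := hE.sq y₀
  have hm1 : 1 ≤ m := by
    by_contra h
    have h0 : m = 0 := by omega
    rw [h0, pow_zero] at hm
    have : Subsingleton E := (Nat.card_eq_one_iff_unique.1 hm).1
    have h2 : (⟨y₀ * y₀, hz₁E⟩ : E) = 1 := Subsingleton.elim _ _
    exact hz₁ (congrArg Subtype.val h2)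
  -- `F` is positive
  have hFpos : 0 < F := by
    rw [← hF _ hz₁E hz₁]
    apply Finset.card_pos.2
    exact ⟨y₀, by simp⟩
  -- the count
  have hcount : (Fintype.card Y : ℤ) = (F : ℤ) * e + (e - F) := by
    have h1 := sum_sq' hE hF (fun _ => 1)
    simp only [Finset.sum_const, Finset.card_univ, nsmul_eq_mul, mul_one] at h1
    rw [← Nat.card_eq_fintype_card (α := E)] at h1
    exact h1
  have hcY : Fintype.card Y = 2 ^ n := by rw [← Nat.card_eq_fintype_card]; exact hn
  have hey : e ∣ Fintype.card Y := by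
    rw [← Nat.card_eq_fintype_card]
    exact Subgroup.card_subgroup_dvd_card E
  -- `e` divides `F`
  obtain ⟨f, hf⟩ : e ∣ F := by
    have h1 : (e : ℤ) ∣ (F : ℤ) := by
      have h2 : (F : ℤ) = (F : ℤ) * e + e - Fintype.card Y := by rw [hcount]; ring
      rw [h2]
      exact dvd_sub (Dvd.dvd.add (Dvd.intro_left _ rfl) (dvd_refl _)) (Int.natCast_dvd_natCast.2 hey)
    exact Int.natCast_dvd_natCast.1 h1
  have he0 : 0 < e := Nat.card_pos
  have hf0 : f ≠ 0 := by
    rintro rfl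
    rw [mul_zero] at hf
    omega
  have hf1 : f ≠ 1 := by
    rintro rfl
    rw [mul_one] at hf
    exact hFe hf
  -- the index
  obtain ⟨u, hu⟩ := hey
  have hue : (u : ℤ) = 1 + ((e : ℤ) - 1) * f := by
    have h1 : (e : ℤ) * u = e * (1 + ((e : ℤ) - 1) * f) := by
      have h2 : (Fintype.card Y : ℤ) = e * u := by rw [hu]; push_cast; ring
      rw [← h2, hcount, hf]
      push_cast
      ring
    exact mul_left_cancel₀ (by exact_mod_cast he0.ne') h1
  have hu2 : ∃ d, u = 2 ^ d := by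
    have h1 : u ∣ 2 ^ n := by
      rw [← hcY, hu]
      exact Dvd.intro_left _ rfl
    obtain ⟨d, -, hd⟩ := (Nat.dvd_prime_pow Nat.prime_two).1 h1
    exact ⟨d, hd⟩
  obtain ⟨d, hd⟩ := hu2
  -- the Gauss sum for a hyperplane
  have hgauss : ∀ (H : Subgroup Y) (z₀ : Y), IsHyper E H z₀ →
      ((e : ℤ) - F) ^ 2 = (Fintype.card Y : ℤ) * (Nat.card (rad hE H) : ℤ) := by
    intro H z₀ hH
    have h1 := hH.gauss hE
    have h2 := sum_sq' hE hF (chi H)
    rw [hH.sum_chi hE, mul_zero, zero_add, chi_of_mem H.one_mem, mul_one] at h2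
    rw [h2] at h1
    have h3 : (e : ℤ) - F ≠ 0 := by
      intro h
      apply hFe
      have : (e : ℤ) = F := by linarith
      exact_mod_cast this.symm
    have h4 : ∑ w : Y, (if ∀ u : Y, ⁅w, u⁆ ∈ H then chi H (w * w) else 0) ≠ 0 := by
      intro h
      rw [h, mul_zero] at h1
      exact h3 (pow_eq_zero_iff (by norm_num) |>.1 h1)
    rw [hH.rad_sum hE h4] at h1
    rw [h1]
    congr 2
    rw [Nat.card_eq_fintype_card]
    exact (Fintype.card_of_subtype _ (by
      intro x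
      simp [mem_rad])).symm
  -- a first hyperplane
  obtain ⟨H₀, -, hH₀⟩ := exists_hyper (I := ⊥) (z₀ := y₀ * y₀) hE bot_le hz₁E
    (by rw [Subgroup.mem_bot]; exact hz₁)
  have hg₀ := hgauss H₀ _ hH₀
  -- the radical has order `e * k`
  have hρ : e ∣ Nat.card (rad hE H₀) := Subgroup.card_dvd_of_le (le_rad hE H₀)
  obtain ⟨k, hk⟩ := hρ
  have hr : ∃ r, Nat.card (rad hE H₀) = 2 ^ r := IsPGroup.iff_card.1 (hY2.to_subgroup _)
  obtain ⟨r, hr⟩ := hr
  have hfk : ((f : ℤ) - 1) ^ 2 = u * k := by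
    have h1 : (e : ℤ) ^ 2 * ((f : ℤ) - 1) ^ 2 = (e : ℤ) ^ 2 * (u * k) := by
      have h2 : (Fintype.card Y : ℤ) = e * u := by rw [hu]; push_cast; ring
      rw [h2, hk, hf] at hg₀
      push_cast at hg₀
      linear_combination hg₀
    exact mul_left_cancel₀ (pow_ne_zero 2 (by exact_mod_cast he0.ne')) h1
  -- `f - 1` is a power of two
  have hf2 : 2 ≤ f := by omega
  obtain ⟨g, rfl⟩ : ∃ g, f = g + 1 := ⟨f - 1, by omega⟩
  have hfk' : g ^ 2 = u * k := by
    have h1 : ((g : ℤ)) ^ 2 = u * k := by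
      have := hfk
      push_cast at this
      simpa using this
    exact_mod_cast h1
  have hg2 : ∃ a, g = 2 ^ a := by
    have h1 : g ∣ 2 ^ (d + r) := by
      have h2 : u * k ∣ 2 ^ (d + r) := by
        rw [hd, pow_add]
        apply Nat.mul_dvd_mul_left
        rw [← hr, hk]
        exact Dvd.intro_left _ rfl
      rw [← hfk'] at h2
      exact (dvd_pow_self g (by norm_num)).trans h2
    obtain ⟨a, -, ha⟩ := (Nat.dvd_prime_pow Nat.prime_two).1 h1
    exact ⟨a, ha⟩
  obtain ⟨a, ha⟩ := hg2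
  have hnum : 2 ^ a * (2 ^ m - 1) + 2 ^ m = 2 ^ d := by
    have h1 : 1 ≤ 2 ^ m := Nat.one_le_two_pow
    rw [← hd, ← ha, ← hm]
    have h2 : (u : ℤ) = (g : ℤ) * ((e : ℤ) - 1) + e := by
      rw [hue]
      push_cast
      ring
    have h3 : 1 ≤ e := he0
    zify [h3]
    linarith
  obtain ⟨ham, hdm⟩ := numeric hm1 hnum
  have hge : g = e := by rw [ha, ham, hm]
  have hue2 : u = e ^ 2 := by rw [hd, hdm, hm]; ring
  have hcardY : Fintype.card Y = e ^ 3 := by rw [hu, hue2]; ring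
  have hFval : F = e ^ 2 + e := by rw [hf, hge]; ring
  refine ⟨hcardY, hFval, ?_⟩
  -- all radicals are trivial
  have hrad : ∀ (H : Subgroup Y) (z₀ : Y), IsHyper E H z₀ → (rad hE H) = E := by
    intro H z₀ hH
    symm
    apply Subgroup.eq_of_le_of_card_ge (le_rad hE H)
    have h1 := hgauss H z₀ hH
    rw [hcardY, hFval] at h1
    push_cast at h1
    have h2 : (e : ℤ) ^ 3 * (Nat.card (rad hE H) : ℤ) = (e : ℤ) ^ 3 * e := by
      rw [← h1]
      ring
    have h3 := mul_left_cancel₀ (pow_ne_zero 3 (by exact_mod_cast he0.ne')) h2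
    have h4 : Nat.card (rad hE H) = e := by exact_mod_cast h3
    rw [h4]
  -- surjectivity
  intro w hw z hz
  by_contra hcon
  push Not at hcon
  let I : Subgroup Y :=
    { carrier := {x | ∃ u, ⁅w, u⁆ = x}
      one_mem' := ⟨1, by simp⟩
      mul_mem' := by
        rintro _ _ ⟨a, rfl⟩ ⟨b, rfl⟩
        exact ⟨a * b, hE.comm_mul_right _ _ _⟩
      inv_mem' := by
        rintro _ ⟨a, rfl⟩
        refine ⟨a⁻¹, ?_⟩
        have h1 : ⁅w, a⁆ * ⁅w, a⁻¹⁆ = 1 := by
          rw [← hE.comm_mul_right]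
          simp
        exact eq_inv_of_mul_eq_one_right h1 }
  have hI : I ≤ E := by
    rintro _ ⟨a, rfl⟩
    exact hE.comm _ _
  have hzI : z ∉ I := by
    rintro ⟨a, ha⟩
    exact hcon a ha
  obtain ⟨H, hIH, hH⟩ := exists_hyper hE hI hz hzI
  have h1 : w ∈ rad hE H := fun a => hIH ⟨a, rfl⟩
  rw [hrad H z hH] at h1
  exact hw h1

end structure_thm

section split

open Classical

/-- Sets stable under a subgroup have cardinality divisible by the order of the subgroup. -/
lemma card_dvd_of_stable {X : Type*} [Group X] [Fintype X] (E : Subgroup X) (s : Finset X)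
    (hs : ∀ u ∈ s, ∀ z ∈ E, u * z ∈ s) : Nat.card E ∣ s.card := by
  let f : X → X ⧸ E := fun x => (x : X ⧸ E)
  rw [Finset.card_eq_sum_card_image f s]
  apply Finset.dvd_sum
  intro b hb
  obtain ⟨u₀, hu₀, rfl⟩ := Finset.mem_image.1 hb
  have h1 : Nat.card E = (s.filter (fun x => f x = f u₀)).card := by
    rw [Nat.card_eq_fintype_card, ← Finset.card_univ]
    apply Finset.card_bij (fun (z : E) _ => u₀ * (z : X))
    · intro z _
      refine Finset.mem_filter.2 ⟨hs u₀ hu₀ z z.2, ?_⟩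
      change ((u₀ * (z : X) : X) : X ⧸ E) = (u₀ : X ⧸ E)
      rw [eq_comm, QuotientGroup.eq]
      simp
    · intro a _ b _ h
      exact Subtype.ext (mul_left_cancel h)
    · intro x hx
      obtain ⟨hx1, hx2⟩ := Finset.mem_filter.1 hx
      have h2 : (x : X ⧸ E) = (u₀ : X ⧸ E) := hx2
      rw [eq_comm, QuotientGroup.eq] at h2
      exact ⟨⟨_, h2⟩, Finset.mem_univ _, by simp⟩
  rw [h1]

variable [Fintype Y] {E A B : Subgroup Y}

/-- The Kronecker delta. -/
noncomputable def del (g h : Y) : ℤ := if g = h then 1 else 0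

lemma card_subgroupOf_le (hEA : E ≤ A) : Nat.card (E.subgroupOf A) = Nat.card E :=
  Nat.card_congr (Subgroup.subgroupOfEquivOfLe hEA).toEquiv

/-- Sums over products. -/
lemma pair_sum (hE : Sp E) (hEA : E ≤ A) (hEB : E ≤ B) (hinf : ∀ x ∈ A, x ∈ B → x ∈ E)
    (hsup : ∀ w : Y, ∃ a ∈ A, ∃ b ∈ B, w = a * b) (h : Y → ℤ) :
    ∑ a : A, ∑ b : B, h ((a : Y) * b) = (Nat.card E : ℤ) * ∑ w : Y, h w := by
  rw [← Fintype.sum_prod_type' (fun (a : A) (b : B) => h ((a : Y) * b))]
  let f : A × B → Y := fun p => (p.1 : Y) * p.2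
  rw [← Finset.sum_fiberwise (Finset.univ : Finset (A × B)) f, Finset.mul_sum]
  apply Finset.sum_congr rfl
  intro w _
  have h1 : ∀ p ∈ (univ.filter (fun p : A × B => f p = w)), h ((p.1 : Y) * p.2) = h w := by
    intro p hp
    have h3 : f p = w := (mem_filter.1 hp).2
    change h (f p) = _
    rw [h3]
  rw [Finset.sum_congr rfl h1, Finset.sum_const, nsmul_eq_mul]
  congr 1
  obtain ⟨a₀, ha₀, b₀, hb₀, rfl⟩ := hsup w
  have h2 : Nat.card E = (univ.filter (fun p : A × B => f p = a₀ * b₀)).card := by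
    rw [Nat.card_eq_fintype_card, ← Finset.card_univ]
    apply Finset.card_bij (fun (z : E) _ => ((⟨a₀ * z, A.mul_mem ha₀ (hEA z.2)⟩ : A),
      (⟨(z : Y)⁻¹ * b₀, B.mul_mem (B.inv_mem (hEB z.2)) hb₀⟩ : B)))
    · intro z _
      refine mem_filter.2 ⟨mem_univ _, ?_⟩
      change a₀ * (z : Y) * ((z : Y)⁻¹ * b₀) = a₀ * b₀
      group
    · intro x _ y _ hxy
      have h3 := congrArg (fun p : A × B => (p.1 : Y)) hxy
      exact Subtype.ext (mul_left_cancel h3)
    · rintro ⟨a, b⟩ hp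
      have h3 : (a : Y) * b = a₀ * b₀ := (mem_filter.1 hp).2
      have h4 : a₀⁻¹ * a = b₀ * (b : Y)⁻¹ := by
        have : (a : Y) = a₀ * b₀ * (b : Y)⁻¹ := by rw [← h3]; group
        rw [this]; group
      have h5 : a₀⁻¹ * a ∈ E := hinf _ (A.mul_mem (A.inv_mem ha₀) a.2) (by
        rw [h4]
        exact B.mul_mem hb₀ (B.inv_mem b.2))
      refine ⟨⟨_, h5⟩, mem_univ _, ?_⟩
      apply Prod.ext
      · apply Subtype.ext
        change a₀ * (a₀⁻¹ * a) = a
        group
      · apply Subtype.ext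
        change (a₀⁻¹ * (a : Y))⁻¹ * b₀ = b
        rw [h4]
        group
  rw [h2]

/-- Fibres of the commutator map. -/
lemma fiber_comm (hE : Sp E) (hEA : E ≤ A) (w : A)
    (hw : ∀ z ∈ E, ∃ u : A, ⁅(w : Y), (u : Y)⁆ = z) (g : Y) (hg : g ∈ E) :
    (Nat.card E) * (univ.filter (fun u : A => ⁅(w : Y), (u : Y)⁆ = g)).card = Fintype.card A := by
  have hfib : ∀ g ∈ E, (univ.filter (fun u : A => ⁅(w : Y), (u : Y)⁆ = g)).card =
      (univ.filter (fun u : A => ⁅(w : Y), (u : Y)⁆ = 1)).card := by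
    intro g hg
    obtain ⟨u₀, hu₀⟩ := hw g hg
    symm
    apply Finset.card_bij (fun u _ => u₀ * u)
    · intro u hu
      refine mem_filter.2 ⟨mem_univ _, ?_⟩
      have h1 : ⁅(w : Y), (u : Y)⁆ = 1 := (mem_filter.1 hu).2
      change ⁅(w : Y), (u₀ : Y) * (u : Y)⁆ = g
      rw [hE.comm_mul_right, h1, mul_one, hu₀]
    · intro a _ b _ h
      exact mul_left_cancel h
    · intro x hx
      have h1 : ⁅(w : Y), (x : Y)⁆ = g := (mem_filter.1 hx).2
      refine ⟨u₀⁻¹ * x, mem_filter.2 ⟨mem_univ _, ?_⟩, by group⟩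
      change ⁅(w : Y), ((u₀ : Y)⁻¹ * (x : Y))⁆ = 1
      rw [hE.comm_mul_right, h1]
      have h2 : ⁅(w : Y), (u₀ : Y)⁆ * ⁅(w : Y), (u₀ : Y)⁻¹⁆ = 1 := by
        rw [← hE.comm_mul_right]
        simp
      rw [hu₀] at h2
      rw [← h2]
      exact hE.central _ (hE.comm _ _) _
  let f : A → E := fun u => ⟨⁅(w : Y), (u : Y)⁆, hE.comm _ _⟩
  have h1 : Fintype.card A = ∑ z : E, (univ.filter (fun u : A => f u = z)).card := by
    rw [← Finset.card_univ]
    exact Finset.card_eq_sum_card_fiberwise (fun x _ => mem_univ _)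
  have h2 : ∀ z : E, (univ.filter (fun u : A => f u = z)).card =
      (univ.filter (fun u : A => ⁅(w : Y), (u : Y)⁆ = g)).card := by
    intro z
    rw [hfib g hg, ← hfib z z.2]
    congr 1
    ext u
    simp only [mem_filter, mem_univ, true_and]
    exact ⟨fun h => congrArg Subtype.val h, fun h => Subtype.ext h⟩
  simp_rw [h2] at h1
  rw [h1, Finset.sum_const, Finset.card_univ, smul_eq_mul, Nat.card_eq_fintype_card]

/-- The number `D(y)` of pairs in `A`. -/
lemma D_eq (hE : Sp E) (hEA : E ≤ A) {τ : ℕ}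
    (hτ : ∀ w : A, (w : Y) ∉ E → ∀ g ∈ E, (univ.filter (fun u : A => ⁅(w : Y), (u : Y)⁆ = g)).card = τ)
    (y : Y) (hy : y ∈ E) :
    ∑ u : A, ∑ u' : A, del (((u : Y) * u) * ((u' : Y) * u')) y =
      (Nat.card E : ℤ) * (Fintype.card A : ℤ) * del 1 y +
        ((Fintype.card A : ℤ) - Nat.card E) * (τ : ℤ) := by
  have h1 : ∀ u : A, ∑ u' : A, del (((u : Y) * u) * ((u' : Y) * u')) y =
      ∑ w : A, del (⁅(w : Y), (u : Y)⁆ * ((w : Y) * w)) y := by
    intro u
    rw [← Equiv.sum_comp (Equiv.mulLeft u)]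
    apply Finset.sum_congr rfl
    intro w _
    change del (((u : Y) * u) * (((u : Y) * w) * ((u : Y) * w))) y = _
    rw [hE.sq_mul_sq]
  simp_rw [h1]
  rw [Finset.sum_comm]
  have h2 : ∀ w : A, ∑ u : A, del (⁅(w : Y), (u : Y)⁆ * ((w : Y) * w)) y =
      if (w : Y) ∈ E then (Fintype.card A : ℤ) * del 1 y else (τ : ℤ) := by
    intro w
    by_cases hw : (w : Y) ∈ E
    · rw [if_pos hw]
      have h3 : ∀ u : A, del (⁅(w : Y), (u : Y)⁆ * ((w : Y) * w)) y = del 1 y := by
        intro u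
        rw [hE.comm_central _ _ hw, hE.two _ hw, one_mul]
      simp_rw [h3]
      rw [Finset.sum_const, Finset.card_univ, nsmul_eq_mul]
    · rw [if_neg hw, ← hτ w hw (y * ((w : Y) * w)) (E.mul_mem hy (hE.sq _))]
      have h3 : ∀ u : A, del (⁅(w : Y), (u : Y)⁆ * ((w : Y) * w)) y =
          if ⁅(w : Y), (u : Y)⁆ = y * ((w : Y) * w) then 1 else 0 := by
        intro u
        unfold del
        have h4 : ⁅(w : Y), (u : Y)⁆ * ((w : Y) * w) = y ↔ ⁅(w : Y), (u : Y)⁆ = y * ((w : Y) * w) := by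
          constructor
          · intro h
            rw [← h, mul_assoc, hE.two _ (hE.sq _), mul_one]
          · intro h
            rw [h, mul_assoc, hE.two _ (hE.sq _), mul_one]
        simp only [h4]
      simp_rw [h3]
      rw [Finset.sum_boole]
  simp_rw [h2]
  have h3 : ∑ w : A, (if (w : Y) ∈ E then (Fintype.card A : ℤ) * del 1 y else (τ : ℤ)) =
      ((univ.filter (fun w : A => (w : Y) ∈ E)).card : ℤ) * ((Fintype.card A : ℤ) * del 1 y) +
      ((univ.filter (fun w : A => ¬ (w : Y) ∈ E)).card : ℤ) * (τ : ℤ) := by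
    rw [Finset.sum_ite, Finset.sum_const, Finset.sum_const, nsmul_eq_mul, nsmul_eq_mul]
  rw [h3]
  have h4 : (univ.filter (fun w : A => (w : Y) ∈ E)).card = Nat.card E := by
    rw [← card_subgroupOf_le hEA, Nat.card_eq_fintype_card]
    exact (Fintype.card_of_subtype _ (by
      intro x
      simp [Subgroup.mem_subgroupOf])).symm
  have h5 : (univ.filter (fun w : A => ¬ (w : Y) ∈ E)).card = Fintype.card A - Nat.card E := by
    rw [← h4, Finset.filter_not, Finset.card_sdiff_of_subset (Finset.subset_univ _), Finset.card_univ]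
  have h6 : Nat.card E ≤ Fintype.card A := by
    rw [← h4]
    exact Finset.card_le_univ _
  rw [h4, h5, Nat.cast_sub h6]
  ring

/-- Number of square roots of `z` in the subgroup `A`. -/
noncomputable def sqc (A : Subgroup Y) (z : Y) : ℕ := (univ.filter (fun u : A => (u : Y) * u = z)).card

lemma sum_del (A : Subgroup Y) (z : Y) : ∑ u : A, del ((u : Y) * u) z = (sqc A z : ℤ) := by
  unfold del sqc
  rw [Finset.sum_boole]

/-- The fundamental relation between the numbers of square roots. -/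
lemma relation (hE : Sp E) (hEA : E ≤ A) (hEB : E ≤ B) (hAB : ∀ a ∈ A, ∀ b ∈ B, a * b = b * a)
    (hinf : ∀ x ∈ A, x ∈ B → x ∈ E) (hsup : ∀ w : Y, ∃ a ∈ A, ∃ b ∈ B, w = a * b)
    (hcard : Fintype.card Y = (Nat.card E) ^ 3) {F : ℕ} (hF : ∀ z ∈ E, z ≠ 1 → fib z = F)
    (hFv : F = (Nat.card E) ^ 2 + Nat.card E) {τ : ℕ}
    (hτ : ∀ w : A, (w : Y) ∉ E → ∀ g ∈ E, (univ.filter (fun u : A => ⁅(w : Y), (u : Y)⁆ = g)).card = τ)
    (hτe : Nat.card E * τ = Fintype.card A) (z : Y) (hz : z ∈ E) :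
    (Fintype.card A : ℤ) * sqc B z + (Nat.card E : ℤ) ^ 2 * sqc A z =
      (Fintype.card A : ℤ) * Nat.card E + (Nat.card E : ℤ) ^ 3 := by
  set e := Nat.card E with he
  have he0 : (e : ℤ) ≠ 0 := by exact_mod_cast (Nat.card_pos (α := E)).ne'
  -- first way
  have h1 : ∀ u : A, ∑ u' : A, ∑ v : B, del (((u : Y) * u) * (((u' : Y) * u') * ((v : Y) * v))) z =
      (e : ℤ) * ((F : ℤ) + ((e : ℤ) - F) * del ((u : Y) * u) z) := by
    intro u
    have h2 := pair_sum hE hEA hEB hinf hsup (fun x => del (((u : Y) * u) * (x * x)) z)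
    have h3 : ∀ (u' : A) (v : B), del (((u : Y) * u) * (((u' : Y) * u') * ((v : Y) * v))) z =
        del (((u : Y) * u) * ((((u' : Y) * v)) * ((u' : Y) * v))) z := by
      intro u' v
      rw [hE.sq_mul_comm _ _ (hAB _ u'.2 _ v.2)]
    simp_rw [h3]
    rw [h2]
    congr 1
    have h4 : ∑ w : Y, del (((u : Y) * u) * (w * w)) z = (fib (((u : Y) * u) * z) : ℤ) := by
      unfold del fib
      rw [Finset.sum_boole]
      congr 2
      ext w
      simp only [mem_filter, mem_univ, true_and]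
      have h5 := hE.two _ (hE.sq (u : Y))
      constructor
      · intro h
        rw [← h, ← mul_assoc, h5, one_mul]
      · intro h
        rw [h, ← mul_assoc, h5, one_mul]
    rw [h4]
    by_cases h5 : (u : Y) * u = z
    · have h6 : del ((u : Y) * u) z = 1 := by unfold del; rw [if_pos h5]
      have h7 : ((u : Y) * u) * z = 1 := by rw [h5]; exact hE.two z hz
      rw [h6, h7, fib_one hE]
      ring
    · have h6 : del ((u : Y) * u) z = 0 := by unfold del; rw [if_neg h5]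
      have h7 : ((u : Y) * u) * z ≠ 1 := by
        intro h
        apply h5
        have := hE.two z hz
        calc (u : Y) * u = ((u : Y) * u) * (z * z) := by rw [this, mul_one]
          _ = (((u : Y) * u) * z) * z := by group
          _ = z := by rw [h, one_mul]
      rw [h6, hF _ (E.mul_mem (hE.sq _) hz) h7]
      ring
  -- second way
  have h2 : ∀ v : B, ∑ u : A, ∑ u' : A, del (((u : Y) * u) * (((u' : Y) * u') * ((v : Y) * v))) z =
      (e : ℤ) * (Fintype.card A : ℤ) * del ((v : Y) * v) z + ((Fintype.card A : ℤ) - e) * (τ : ℤ) := by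
    intro v
    have h3 := D_eq hE hEA hτ (z * ((v : Y) * v)) (E.mul_mem hz (hE.sq _))
    have h5 := hE.two _ (hE.sq (v : Y))
    have h4 : ∀ u u' : A, del (((u : Y) * u) * (((u' : Y) * u') * ((v : Y) * v))) z =
        del (((u : Y) * u) * ((u' : Y) * u')) (z * ((v : Y) * v)) := by
      intro u u'
      unfold del
      have gen : ∀ X w z : Y, w * w = 1 → (X * w = z ↔ X = z * w) := by
        intro X w z hw
        constructor
        · intro h
          rw [← h, mul_assoc, hw, mul_one]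
        · intro h
          rw [h, mul_assoc, hw, mul_one]
      have : ((u : Y) * u) * (((u' : Y) * u') * ((v : Y) * v)) = z ↔
          ((u : Y) * u) * ((u' : Y) * u') = z * ((v : Y) * v) := by
        rw [← mul_assoc]
        exact gen _ _ _ h5
      simp only [this]
    simp_rw [h4]
    rw [h3]
    congr 2
    unfold del
    have : (1 : Y) = z * ((v : Y) * v) ↔ (v : Y) * v = z := by
      constructor
      · intro h
        have h6 := hE.two z hz
        calc (v : Y) * v = (z * z) * ((v : Y) * v) := by rw [h6, one_mul]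
          _ = z * (z * ((v : Y) * v)) := by group
          _ = z := by rw [← h, mul_one]
      · intro h
        rw [h]
        exact (hE.two z hz).symm
    simp only [this]
  have hM : ∑ u : A, ∑ u' : A, ∑ v : B, del (((u : Y) * u) * (((u' : Y) * u') * ((v : Y) * v))) z =
      ∑ v : B, ∑ u : A, ∑ u' : A, del (((u : Y) * u) * (((u' : Y) * u') * ((v : Y) * v))) z := by
    rw [Finset.sum_comm (s := (Finset.univ : Finset B))]
    apply Finset.sum_congr rfl
    intro u _
    rw [Finset.sum_comm]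
  have hL : ∑ u : A, ∑ u' : A, ∑ v : B, del (((u : Y) * u) * (((u' : Y) * u') * ((v : Y) * v))) z =
      (e : ℤ) * ((Fintype.card A : ℤ) * F + ((e : ℤ) - F) * sqc A z) := by
    simp_rw [h1]
    rw [← Finset.mul_sum, Finset.sum_add_distrib, ← Finset.mul_sum, sum_del, Finset.sum_const,
      Finset.card_univ, nsmul_eq_mul]
  have hR : ∑ v : B, ∑ u : A, ∑ u' : A, del (((u : Y) * u) * (((u' : Y) * u') * ((v : Y) * v))) z =
      (e : ℤ) * (Fintype.card A : ℤ) * sqc B z + (Fintype.card B : ℤ) * (((Fintype.card A : ℤ) - e) * (τ : ℤ)) := by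
    simp_rw [h2]
    rw [Finset.sum_add_distrib, ← Finset.mul_sum, sum_del, Finset.sum_const,
      Finset.card_univ, nsmul_eq_mul]
  rw [hL, hR] at hM
  -- the product of the orders
  have hprod : (Fintype.card A : ℤ) * Fintype.card B = (e : ℤ) * (e : ℤ) ^ 3 := by
    have h3 := pair_sum hE hEA hEB hinf hsup (fun _ => 1)
    simp only [Finset.sum_const, Finset.card_univ, nsmul_eq_mul, mul_one] at h3
    rw [hcard] at h3
    push_cast at h3
    exact h3
  have hτe' : (e : ℤ) * τ = Fintype.card A := by exact_mod_cast hτe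
  have hFv' : (F : ℤ) = (e : ℤ) ^ 2 + e := by exact_mod_cast hFv
  rw [hFv'] at hM
  have key : (e : ℤ) ^ 2 * ((Fintype.card A : ℤ) * sqc B z + (e : ℤ) ^ 2 * sqc A z) =
      (e : ℤ) ^ 2 * ((Fintype.card A : ℤ) * e + (e : ℤ) ^ 3) := by
    linear_combination (-(e : ℤ)) * hM - (Fintype.card B : ℤ) * ((Fintype.card A : ℤ) - e) * hτe' -
      ((Fintype.card A : ℤ) - e) * hprod
  exact mul_left_cancel₀ (pow_ne_zero 2 he0) key

/-- The square roots in `A` are unions of cosets of `E`. -/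
lemma dvd_sqc (hE : Sp E) (hEA : E ≤ A) (z : Y) : Nat.card E ∣ sqc A z := by
  rw [← card_subgroupOf_le hEA]
  apply card_dvd_of_stable
  intro u hu x hx
  have h1 : (u : Y) * u = z := (mem_filter.1 hu).2
  have hx' : (x : Y) ∈ E := hx
  refine mem_filter.2 ⟨mem_univ _, ?_⟩
  change ((u : Y) * x) * ((u : Y) * x) = z
  rw [hE.sq_mul_comm _ _ (hE.central _ hx' _).symm, hE.two _ hx', mul_one, h1]

lemma sqc_one (hE : Sp E) (hEA : E ≤ A) : sqc A 1 = Nat.card E := by
  rw [← card_subgroupOf_le hEA, Nat.card_eq_fintype_card]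
  unfold sqc
  rw [Fintype.card_of_subtype]
  intro x
  simp only [mem_filter, mem_univ, true_and, Subgroup.mem_subgroupOf]
  exact ⟨fun h => hE.aniso _ h, fun h => hE.two _ h⟩

lemma sum_sqc (hE : Sp E) : ∑ z : E, sqc A (z : Y) = Fintype.card A := by
  let f : A → E := fun u => ⟨(u : Y) * u, hE.sq _⟩
  rw [← Finset.card_univ, Finset.card_eq_sum_card_fiberwise (f := f) (t := Finset.univ) (fun x _ => mem_univ _)]
  apply Finset.sum_congr rfl
  intro z _
  unfold sqc
  congr 1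
  ext u
  simp only [mem_filter, mem_univ, true_and, f]
  exact ⟨fun h => Subtype.ext h, fun h => congrArg Subtype.val h⟩

/-- **The splitting lemma**: a central decomposition of `Y` modulo `E` is trivial when squares are
uniformly distributed. -/
theorem split_trivial (hE : Sp E) {F : ℕ} (hF : ∀ z ∈ E, z ≠ 1 → fib z = F) (hFe : F ≠ Nat.card E)
    (hEA : E ≤ A) (hEB : E ≤ B) (hAB : ∀ a ∈ A, ∀ b ∈ B, a * b = b * a)
    (hinf : ∀ x ∈ A, x ∈ B → x ∈ E) (hsup : ∀ w : Y, ∃ a ∈ A, ∃ b ∈ B, w = a * b) :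
    (∀ a ∈ A, a ∈ E) ∨ (∀ b ∈ B, b ∈ E) := by
  by_contra hcon
  push Not at hcon
  obtain ⟨⟨u₀, hu₀A, hu₀⟩, ⟨v₀, hv₀B, hv₀⟩⟩ := hcon
  obtain ⟨hcard, hFv, hsurj⟩ := structure_of_uniform (hE := hE) hF hFe hu₀
  set e := Nat.card E with he
  have he0 : 0 < e := Nat.card_pos
  have he0' : (e : ℤ) ≠ 0 := by exact_mod_cast he0.ne'
  -- the fibres of the commutator map
  obtain ⟨τ, hτe⟩ : e ∣ Fintype.card A := by
    rw [he, ← Nat.card_eq_fintype_card]
    exact Subgroup.card_dvd_of_le hEA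
  have hτ : ∀ w : A, (w : Y) ∉ E → ∀ g ∈ E, (univ.filter (fun u : A => ⁅(w : Y), (u : Y)⁆ = g)).card = τ := by
    intro w hw g hg
    have h1 := fiber_comm hE hEA w (by
      intro z hz
      obtain ⟨y, hy⟩ := hsurj w hw z hz
      obtain ⟨a, ha, b, hb, rfl⟩ := hsup y
      refine ⟨⟨a, ha⟩, ?_⟩
      rw [hE.comm_mul_right] at hy
      have h2 : ⁅(w : Y), b⁆ = 1 := by
        rw [commutatorElement_eq_one_iff_mul_comm]
        exact hAB _ w.2 _ hb
      rw [h2, mul_one] at hy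
      exact hy) g hg
    rw [hτe] at h1
    exact Nat.eq_of_mul_eq_mul_left he0 h1
  have hrel := relation hE hEA hEB hAB hinf hsup hcard hF hFv hτ hτe.symm
  set t := Fintype.card A with ht
  -- squares are not shared
  have hdisj : ∀ z ∈ E, z ≠ 1 → sqc A z ≠ 0 → sqc B z = 0 := by
    intro z hz hz1 ha
    by_contra hb
    obtain ⟨u, hu⟩ := Finset.card_pos.1 (Nat.pos_of_ne_zero ha)
    obtain ⟨v, hv⟩ := Finset.card_pos.1 (Nat.pos_of_ne_zero hb)
    have hu' : (u : Y) * u = z := (mem_filter.1 hu).2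
    have hv' : (v : Y) * v = z := (mem_filter.1 hv).2
    have h1 : ((u : Y) * v) * ((u : Y) * v) = 1 := by
      rw [hE.sq_mul_comm _ _ (hAB _ u.2 _ v.2), hu', hv']
      exact hE.two z hz
    have h2 : (u : Y) * v ∈ E := hE.aniso _ h1
    have h3 : (u : Y) ∈ B := by
      have := B.mul_mem (hEB h2) (B.inv_mem v.2)
      simpa using this
    have h4 := hinf _ u.2 h3
    apply hz1
    rw [← hu']
    exact hE.two _ h4
  have hdisj' : ∀ z ∈ E, z ≠ 1 → sqc B z ≠ 0 → sqc A z = 0 := by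
    intro z hz hz1 hb
    by_contra ha
    exact hb (hdisj z hz hz1 ha)
  -- the special elements
  have hz₁ : (u₀ * u₀) ≠ 1 := fun h => hu₀ (hE.aniso _ h)
  have hz₂ : (v₀ * v₀) ≠ 1 := fun h => hv₀ (hE.aniso _ h)
  have ha₁ : sqc A (u₀ * u₀) ≠ 0 := by
    unfold sqc
    have : 0 < (univ.filter (fun u : A => (u : Y) * u = u₀ * u₀)).card :=
      Finset.card_pos.2 ⟨⟨u₀, hu₀A⟩, mem_filter.2 ⟨mem_univ _, rfl⟩⟩
    exact this.ne'
  have hb₂ : sqc B (v₀ * v₀) ≠ 0 := by
    unfold sqc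
    have : 0 < (univ.filter (fun u : B => (u : Y) * u = v₀ * v₀)).card :=
      Finset.card_pos.2 ⟨⟨v₀, hv₀B⟩, mem_filter.2 ⟨mem_univ _, rfl⟩⟩
    exact this.ne'
  obtain ⟨a₁, ha₁'⟩ := dvd_sqc (A := A) hE hEA (u₀ * u₀)
  obtain ⟨b₂, hb₂'⟩ := dvd_sqc (A := B) hE hEB (v₀ * v₀)
  have h1 := hrel _ (hE.sq u₀)
  rw [hdisj _ (hE.sq u₀) hz₁ ha₁, ha₁'] at h1
  have h2 := hrel _ (hE.sq v₀)
  rw [hdisj' _ (hE.sq v₀) hz₂ hb₂, hb₂'] at h2
  -- `t = e²`
  have h3 : e ^ 2 ∣ t := by
    have h4 : (e : ℤ) * ((e : ℤ) ^ 2 * a₁) = (e : ℤ) * ((t : ℤ) + (e : ℤ) ^ 2) := by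
      push_cast at h1
      linear_combination h1
    have h5 := mul_left_cancel₀ he0' h4
    have h6 : (e ^ 2 : ℤ) ∣ (t : ℤ) := by
      have : (t : ℤ) = (e : ℤ) ^ 2 * (a₁ - 1) := by linear_combination -h5
      rw [this]
      exact Dvd.intro _ rfl
    exact_mod_cast h6
  have h4 : t ∣ e ^ 2 := by
    have h5 : (e : ℤ) * ((t : ℤ) * b₂) = (e : ℤ) * ((t : ℤ) + (e : ℤ) ^ 2) := by
      push_cast at h2
      linear_combination h2
    have h6 := mul_left_cancel₀ he0' h5
    have h7 : (t : ℤ) ∣ (e : ℤ) ^ 2 := by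
      have : (e : ℤ) ^ 2 = (t : ℤ) * (b₂ - 1) := by linear_combination -h6
      rw [this]
      exact Dvd.intro _ rfl
    exact_mod_cast h7
  have ht2 : t = e ^ 2 := Nat.dvd_antisymm h4 h3
  -- all non-trivial fibres have order `2 e`
  have hfib : ∀ z : E, z ∈ (Finset.univ : Finset E).erase 1 → 2 * e ∣ sqc A (z : Y) := by
    intro z hz
    have hz1 : (z : Y) ≠ 1 := fun h => (Finset.mem_erase.1 hz).1 (Subtype.ext h)
    by_cases ha : sqc A (z : Y) = 0
    · rw [ha]
      exact dvd_zero _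
    · have h5 := hrel _ z.2
      rw [hdisj _ z.2 hz1 ha, ht2] at h5
      push_cast at h5
      have h6 : (e : ℤ) ^ 2 * (sqc A (z : Y) : ℤ) = (e : ℤ) ^ 2 * (2 * (e : ℤ)) := by
        linear_combination h5
      have h7 := mul_left_cancel₀ (pow_ne_zero 2 he0') h6
      have h8 : sqc A (z : Y) = 2 * e := by exact_mod_cast h7
      rw [h8]
  have hsum := sum_sqc (A := A) hE
  rw [← Finset.add_sum_erase _ _ (Finset.mem_univ (1 : E))] at hsum
  have h5 : 2 * e ∣ ∑ z ∈ (Finset.univ : Finset E).erase 1, sqc A (z : Y) := Finset.dvd_sum hfib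
  obtain ⟨c, hc⟩ := h5
  have h6 : sqc A ((1 : E) : Y) = e := sqc_one hE hEA
  rw [h6, hc, ← ht, ht2] at hsum
  -- parity
  have h7 : e * (2 * c + 1) = e * e := by
    rw [← sq, ← hsum]
    ring
  have h8 := Nat.eq_of_mul_eq_mul_left he0 h7
  have h9 : 2 ∣ e := by
    have h10 : orderOf (⟨u₀ * u₀, hE.sq u₀⟩ : E) = 2 := by
      apply orderOf_eq_prime
      · apply Subtype.ext
        change (u₀ * u₀) ^ 2 = 1
        rw [sq]
        exact hE.two _ (hE.sq u₀)
      · intro h
        exact hz₁ (congrArg Subtype.val h)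
    rw [← h10]
    exact orderOf_dvd_natCard _
  omega

end split

end Cfsg.Agent.Lib.TwoAuto.Count
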