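/-
Odd order automorphisms of special 2-groups with uniformly distributed squares act semiregularly;
the group they form is cyclic when it is a group of prime power order.
-/
import Cfsg.Agent.Lib.TwoAuto.Count
import Cfsg.Agent.Lib.CoprimeGen.Basic
import Cfsg.Agent.Lib.PGroups.NormalRankTwo
import Cfsg.Agent.Lib.Coprime.Generation

set_option autoImplicit false
set_option linter.style.haveILetI false
set_option linter.unusedSectionVars false

namespace Cfsg.Agent.Lib.TwoAuto.Semi

open Finset Cfsg.Agent.Lib.TwoAuto.Count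
open scoped commutatorElement

variable {Y : Type*} [Group Y]

section basics

variable {E : Subgroup Y} (hE : Sp E)
include hE

lemma normal_of_sp : E.Normal := by
  refine ⟨fun n hn g => ?_⟩
  rw [← hE.central n hn g]
  simpa using hn

/-- An odd order automorphism fixing `E` and moving `u` inside its coset fixes `u`. -/
lemma fixed_of_coset (τ : MulAut Y) {o : ℕ} (ho : Odd o) (hτo : τ ^ o = 1) (hτE : ∀ z ∈ E, τ z = z)
    {u z : Y} (hz : z ∈ E) (h : τ u = u * z) : τ u = u := by
  have h1 : ∀ k : ℕ, (τ ^ k) u = u * z ^ k := by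
    intro k
    induction k with
    | zero => simp
    | succ k ih =>
      rw [pow_succ', MulAut.mul_apply, ih, map_mul, h, map_pow, hτE z hz, pow_succ', mul_assoc]
  have h2 := h1 o
  rw [hτo] at h2
  have h3 : z ^ o = 1 := by
    have : u = u * z ^ o := h2
    exact mul_left_cancel (a := u) (by rw [mul_one]; exact this.symm)
  obtain ⟨k, rfl⟩ := ho
  rw [pow_succ, pow_mul, sq, hE.two z hz, one_pow, one_mul] at h3
  rw [h, h3, mul_one]

end basics

section semi

variable [Fintype Y] {E : Subgroup Y}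

open Classical in
/-- **Odd order automorphisms act semiregularly modulo `E`.** -/
theorem semi (hE : Sp E) (hfib : ∀ z ∈ E, ∀ z' ∈ E, z ≠ 1 → z' ≠ 1 → fib z = fib z') (τ : MulAut Y)
    {o : ℕ} (ho : Odd o) (hτo : τ ^ o = 1) (hτE : ∀ z ∈ E, τ z = z) (hτ1 : τ ≠ 1) :
    ∀ u, τ u = u → u ∈ E := by
  haveI hEn : E.Normal := normal_of_sp hE
  intro u₀ hu₀
  by_contra hu₀E
  have hz₀ : u₀ * u₀ ≠ 1 := fun h => hu₀E (hE.aniso _ h)
  set F := fib (u₀ * u₀) with hFdef
  have hF : ∀ z ∈ E, z ≠ 1 → fib z = F := fun z hz hz1 => hfib z hz _ (hE.sq u₀) hz1 hz₀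
  by_cases hFe : F = Nat.card E
  · -- each fibre is a single coset
    apply hτ1
    apply MulEquiv.ext
    intro w
    change τ w = w
    by_cases hw : w ∈ E
    · exact hτE w hw
    have hw1 : w * w ≠ 1 := fun h => hw (hE.aniso _ h)
    have hcard : (univ.filter (fun v : Y => v * v = w * w)).card = Nat.card E := by
      have := hF _ (hE.sq w) hw1
      rw [hFe] at this
      exact this
    have hsub : (univ.image (fun z : E => w * (z : Y))) ⊆ univ.filter (fun v : Y => v * v = w * w) := by
      intro v hv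
      obtain ⟨z, -, rfl⟩ := mem_image.1 hv
      refine mem_filter.2 ⟨mem_univ _, ?_⟩
      rw [hE.sq_mul_comm _ _ (hE.central _ z.2 _).symm, hE.two _ z.2, mul_one]
    have hcard2 : (univ.image (fun z : E => w * (z : Y))).card = Nat.card E := by
      rw [Finset.card_image_of_injective, Finset.card_univ, Nat.card_eq_fintype_card]
      intro a b h
      exact Subtype.ext (mul_left_cancel h)
    have heq := Finset.eq_of_subset_of_card_le hsub (by rw [hcard, hcard2])
    have hmem : τ w ∈ univ.filter (fun v : Y => v * v = w * w) := by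
      refine mem_filter.2 ⟨mem_univ _, ?_⟩
      rw [← map_mul, hτE _ (hE.sq w)]
    rw [← heq] at hmem
    obtain ⟨z, -, hz⟩ := mem_image.1 hmem
    exact fixed_of_coset hE τ ho hτo hτE z.2 hz.symm
  -- the quotient
  letI cg : CommGroup (Y ⧸ E) :=
    { (inferInstance : Group (Y ⧸ E)) with
      mul_comm := by
        intro a b
        obtain ⟨a, rfl⟩ := QuotientGroup.mk_surjective a
        obtain ⟨b, rfl⟩ := QuotientGroup.mk_surjective b
        have h1 : ⁅a, b⁆ ∈ E := hE.comm a b
        rw [← QuotientGroup.mk_mul, ← QuotientGroup.mk_mul, eq_comm, QuotientGroup.eq]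
        have h2 : (b * a)⁻¹ * (a * b) = ⁅a⁻¹, b⁻¹⁆ := by
          rw [commutatorElement_def]; group
        rw [h2]
        exact hE.comm _ _ }
  have hU2 : ∀ x : Y ⧸ E, x * x = 1 := by
    intro x
    obtain ⟨a, rfl⟩ := QuotientGroup.mk_surjective x
    rw [← QuotientGroup.mk_mul]
    exact (QuotientGroup.eq_one_iff _).2 (hE.sq a)
  let t : (Y ⧸ E) →* (Y ⧸ E) := QuotientGroup.map E E τ.toMonoidHom (by
    intro z hz
    change τ z ∈ E
    rw [hτE z hz]
    exact hz)
  have ht : ∀ y : Y, t (y : Y ⧸ E) = ((τ y : Y) : Y ⧸ E) := fun y => rfl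
  have htk : ∀ (k : ℕ) (y : Y), t^[k] (y : Y ⧸ E) = (((τ ^ k) y : Y) : Y ⧸ E) := by
    intro k
    induction k with
    | zero => intro y; rfl
    | succ k ih =>
      intro y
      rw [Function.iterate_succ_apply', ih, ht, pow_succ', MulAut.mul_apply]
  have hto : ∀ x : Y ⧸ E, t^[o] x = x := by
    intro x
    obtain ⟨a, rfl⟩ := QuotientGroup.mk_surjective x
    rw [htk, hτo]
    rfl
  -- the norm
  let Nm : (Y ⧸ E) → (Y ⧸ E) := fun x => ∏ i ∈ range o, t^[i] x
  have hNmul : ∀ a b, Nm (a * b) = Nm a * Nm b := by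
    intro a b
    change ∏ i ∈ range o, t^[i] (a * b) = (∏ i ∈ range o, t^[i] a) * (∏ i ∈ range o, t^[i] b)
    rw [← Finset.prod_mul_distrib]
    apply Finset.prod_congr rfl
    intro i _
    exact iterate_map_mul t i a b
  have hNt : ∀ x, t (Nm x) = Nm x := by
    intro x
    change t (∏ i ∈ range o, t^[i] x) = ∏ i ∈ range o, t^[i] x
    rw [map_prod]
    have h1 := Finset.prod_range_succ (fun i => t^[i] x) o
    have h2 := Finset.prod_range_succ' (fun i => t^[i] x) o
    rw [h1] at h2
    simp only [hto x, Function.iterate_zero, id_eq] at h2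
    have h3 := mul_right_cancel h2
    rw [h3]
    apply Finset.prod_congr rfl
    intro i _
    rw [Function.iterate_succ_apply']
  have hNfix : ∀ x, t x = x → Nm x = x := by
    intro x hx
    have h1 : ∀ i, t^[i] x = x := by
      intro i
      induction i with
      | zero => rfl
      | succ i ih => rw [Function.iterate_succ_apply', ih, hx]
    change ∏ i ∈ range o, t^[i] x = x
    simp_rw [h1]
    rw [Finset.prod_const, Finset.card_range]
    obtain ⟨k, rfl⟩ := ho
    rw [pow_succ, pow_mul, sq, hU2, one_pow, one_mul]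
  -- lifting fixed points
  have hlift : ∀ a : Y, t (a : Y ⧸ E) = (a : Y ⧸ E) → τ a = a := by
    intro a ha
    rw [ht, eq_comm, QuotientGroup.eq] at ha
    apply fixed_of_coset hE τ ho hτo hτE ha
    group
  -- the two subgroups
  let A : Subgroup Y :=
    { carrier := {u | τ u = u}
      one_mem' := map_one τ
      mul_mem' := by
        intro a b ha hb
        change τ (a * b) = a * b
        rw [map_mul, ha, hb]
      inv_mem' := by
        intro a ha
        change τ a⁻¹ = a⁻¹
        rw [map_inv, ha] }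
  let B : Subgroup Y :=
    { carrier := {v | Nm (v : Y ⧸ E) = 1}
      one_mem' := by
        change Nm ((1 : Y) : Y ⧸ E) = 1
        have := hNmul 1 1
        rw [mul_one] at this
        have h1 : Nm 1 = 1 := by
          have h2 : Nm 1 * Nm 1 = Nm 1 * 1 := by rw [← this, mul_one]
          exact mul_left_cancel h2
        exact h1
      mul_mem' := by
        intro a b ha hb
        change Nm ((a * b : Y) : Y ⧸ E) = 1
        have ha' : Nm (a : Y ⧸ E) = 1 := ha
        have hb' : Nm (b : Y ⧸ E) = 1 := hb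
        rw [QuotientGroup.mk_mul, hNmul, ha', hb', one_mul]
      inv_mem' := by
        intro a ha
        change Nm ((a⁻¹ : Y) : Y ⧸ E) = 1
        have ha' : Nm (a : Y ⧸ E) = 1 := ha
        have h1 : Nm ((a⁻¹ : Y) : Y ⧸ E) * Nm (a : Y ⧸ E) = Nm 1 := by
          rw [← hNmul, ← QuotientGroup.mk_mul]
          simp
        have h2 : Nm (1 : Y ⧸ E) = 1 := by
          have := hNmul 1 1
          rw [mul_one] at this
          have h2 : Nm 1 * Nm 1 = Nm 1 * 1 := by rw [← this, mul_one]
          exact mul_left_cancel h2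
        rw [ha', mul_one, h2] at h1
        exact h1 }
  have hEA : E ≤ A := fun z hz => hτE z hz
  have hEB : E ≤ B := by
    intro z hz
    change Nm (z : Y ⧸ E) = 1
    rw [(QuotientGroup.eq_one_iff z).2 hz]
    have := hNmul 1 1
    rw [mul_one] at this
    have h2 : Nm 1 * Nm 1 = Nm 1 * 1 := by rw [← this, mul_one]
    exact mul_left_cancel h2
  have hinf : ∀ x ∈ A, x ∈ B → x ∈ E := by
    intro x hx hxB
    have h1 : Nm (x : Y ⧸ E) = 1 := hxB
    have hx' : τ x = x := hx
    rw [hNfix _ (by rw [ht, hx'])] at h1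
    exact (QuotientGroup.eq_one_iff x).1 h1
  have hsup : ∀ w : Y, ∃ a ∈ A, ∃ b ∈ B, w = a * b := by
    intro w
    obtain ⟨a, ha⟩ := QuotientGroup.mk_surjective (Nm (w : Y ⧸ E))
    have ha' : (a : Y ⧸ E) = Nm (w : Y ⧸ E) := ha
    have hafix : τ a = a := hlift a (by rw [ha', hNt])
    refine ⟨a, hafix, a⁻¹ * w, ?_, by group⟩
    change Nm ((a⁻¹ * w : Y) : Y ⧸ E) = 1
    rw [QuotientGroup.mk_mul, hNmul]
    have h1 : Nm (a : Y ⧸ E) = (a : Y ⧸ E) := hNfix _ (by rw [ha', hNt])
    have h2 : Nm ((a⁻¹ : Y) : Y ⧸ E) * Nm (a : Y ⧸ E) = Nm 1 := by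
      rw [← hNmul, ← QuotientGroup.mk_mul]
      simp
    have h3 : Nm (1 : Y ⧸ E) = 1 := by
      have := hNmul 1 1
      rw [mul_one] at this
      have h2 : Nm 1 * Nm 1 = Nm 1 * 1 := by rw [← this, mul_one]
      exact mul_left_cancel h2
    rw [h3] at h2
    rw [← ha', ← h1, mul_comm]
    rw [mul_comm]
    exact h2
  have hAB : ∀ a ∈ A, ∀ b ∈ B, a * b = b * a := by
    intro a ha b hb
    have ha' : τ a = a := ha
    have hb' : Nm (b : Y ⧸ E) = 1 := hb
    -- the map `[a, ·]` as a homomorphism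
    let f : Y →* E :=
      { toFun := fun v => ⟨⁅a, v⁆, hE.comm a v⟩
        map_one' := by
          apply Subtype.ext
          simp
        map_mul' := by
          intro x y
          apply Subtype.ext
          exact hE.comm_mul_right a x y }
    have hfE : E ≤ f.ker := by
      intro z hz
      rw [MonoidHom.mem_ker]
      apply Subtype.ext
      exact hE.comm_central' z a hz
    let fb : (Y ⧸ E) →* E := QuotientGroup.lift E f hfE
    have hfb : ∀ y : Y, fb (y : Y ⧸ E) = f y := fun y => rfl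
    have hft : ∀ x, fb (t x) = fb x := by
      intro x
      obtain ⟨y, rfl⟩ := QuotientGroup.mk_surjective x
      rw [ht, hfb, hfb]
      apply Subtype.ext
      change ⁅a, τ y⁆ = ⁅a, y⁆
      have h1 : τ ⁅a, y⁆ = ⁅a, y⁆ := hτE _ (hE.comm a y)
      rw [← h1, map_commutatorElement, ha']
    have hfi : ∀ (i : ℕ) x, fb (t^[i] x) = fb x := by
      intro i x
      induction i with
      | zero => rfl
      | succ i ih => rw [Function.iterate_succ_apply', hft, ih]
    have hfprod : ∀ (k : ℕ) x, fb (∏ i ∈ range k, t^[i] x) = fb x ^ k := by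
      intro k x
      induction k with
      | zero => simp
      | succ k ih => rw [Finset.prod_range_succ, map_mul, ih, hfi, pow_succ]
    have h1 := hfprod o (b : Y ⧸ E)
    have h2 : fb (b : Y ⧸ E) ^ o = fb (b : Y ⧸ E) := by
      obtain ⟨k, rfl⟩ := ho
      have h3 : fb (b : Y ⧸ E) * fb (b : Y ⧸ E) = 1 := by
        apply Subtype.ext
        exact hE.two _ (hE.comm a b)
      rw [pow_succ, pow_mul, sq, h3, one_pow, one_mul]
    change fb (Nm (b : Y ⧸ E)) = _ at h1
    rw [hb', map_one, h2, hfb] at h1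
    have h3 : ⁅a, b⁆ = 1 := by
      have := congrArg Subtype.val h1
      exact this.symm
    exact commutatorElement_eq_one_iff_mul_comm.1 h3
  rcases split_trivial hE hF hFe hEA hEB hAB hinf hsup with h | h
  · exact hu₀E (h u₀ hu₀)
  · apply hτ1
    apply MulEquiv.ext
    intro w
    change τ w = w
    obtain ⟨a, ha, b, hb, rfl⟩ := hsup w
    have ha' : τ a = a := ha
    have hb' : τ b = b := hτE b (h b hb)
    rw [map_mul, ha', hb']

end semi

section cyclic

variable [Finite Y] {E : Subgroup Y}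

/-- A group of automorphisms of odd prime power order, trivial on `E` and semiregular modulo `E`, is cyclic. -/
theorem isCyclic_of_semiregular (hE : Sp E) {y₀ : Y} (hy₀ : y₀ ∉ E) {r : ℕ} [hr : Fact r.Prime] (hr2 : r ≠ 2)
    (W : Subgroup (MulAut Y)) (hWr : IsPGroup r W) (hWE : ∀ τ ∈ W, ∀ z ∈ E, τ z = z)
    (hWs : ∀ τ ∈ W, τ ≠ 1 → ∀ u, τ u = u → u ∈ E) : IsCyclic W := by
  classical
  by_contra hnc
  haveI hEn : E.Normal := normal_of_sp hE
  obtain ⟨A₀, -, hA₀, hA₀c⟩ := Cfsg.Agent.Lib.PGroups.NormalRankTwo.exists_normal_elementaryAbelian_sq hr2 hWr hnc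
  have hrp : r.Prime := hr.out
  have hrodd : Odd r := hrp.odd_of_ne_two hr2
  -- `A₀` is a non cyclic abelian group
  letI cgA : CommGroup A₀ := { (inferInstance : Group A₀) with mul_comm := hA₀.1.is_comm.comm }
  have hA₀exp : ∀ a : A₀, a ^ r = 1 := by
    intro a
    apply Subtype.ext
    exact hA₀.2 a a.2
  have hA₀nc : ¬ IsCyclic A₀ := by
    intro hcyc
    obtain ⟨g, hg⟩ := hcyc.exists_generator
    have h1 : orderOf g = Nat.card A₀ := orderOf_eq_card_of_forall_mem_zpowers hg
    rw [hA₀c] at h1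
    have h2 : orderOf g ∣ r := orderOf_dvd_of_pow_eq_one (hA₀exp g)
    rw [h1] at h2
    have h3 := Nat.le_of_dvd hrp.pos h2
    have h4 := hrp.two_le
    nlinarith
  obtain ⟨q, hq, x, y, hxq, hyq, hy1, hxy⟩ :=
    Cfsg.Agent.Lib.Coprime.Generation.exists_pair_of_not_isCyclic A₀ hA₀nc
  have hqr : q = r := by
    by_contra hne
    have h1 : y ^ Nat.gcd q r = 1 := pow_gcd_eq_one.mpr ⟨hyq, hA₀exp y⟩
    rw [(Nat.coprime_primes hq hrp).2 hne, pow_one] at h1
    exact hy1 h1
  have hqr' : r = q := hqr.symm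
  subst hqr'
  -- the quotient
  letI cg : CommGroup (Y ⧸ E) :=
    { (inferInstance : Group (Y ⧸ E)) with
      mul_comm := by
        intro a b
        obtain ⟨a, rfl⟩ := QuotientGroup.mk_surjective a
        obtain ⟨b, rfl⟩ := QuotientGroup.mk_surjective b
        have h1 : ⁅a, b⁆ ∈ E := hE.comm a b
        rw [← QuotientGroup.mk_mul, ← QuotientGroup.mk_mul, eq_comm, QuotientGroup.eq]
        have h2 : (b * a)⁻¹ * (a * b) = ⁅a⁻¹, b⁻¹⁆ := by
          rw [commutatorElement_def]; group
        rw [h2]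
        exact hE.comm _ _ }
  have hU2 : ∀ x : Y ⧸ E, x * x = 1 := by
    intro x
    obtain ⟨a, rfl⟩ := QuotientGroup.mk_surjective x
    rw [← QuotientGroup.mk_mul]
    exact (QuotientGroup.eq_one_iff _).2 (hE.sq a)
  have hle : ∀ τ : W, E ≤ E.comap (τ : MulAut Y).toMonoidHom := by
    intro τ z hz
    change (τ : MulAut Y) z ∈ E
    rw [hWE _ τ.2 z hz]
    exact hz
  -- the action on the quotient
  let Θ : W →* AddMonoid.End (Additive (Y ⧸ E)) :=
    { toFun := fun τ => MonoidHom.toAdditive (QuotientGroup.map E E (τ : MulAut Y).toMonoidHom (hle τ))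
      map_one' := by
        ext v
        obtain ⟨a, rfl⟩ := QuotientGroup.mk_surjective v
        rfl
      map_mul' := by
        intro σ τ
        ext v
        obtain ⟨a, rfl⟩ := QuotientGroup.mk_surjective v
        rfl }
  have hΘ : ∀ (τ : W) (a : Y), Θ τ (Additive.ofMul (a : Y ⧸ E)) = Additive.ofMul (((τ : MulAut Y) a : Y) : Y ⧸ E) :=
    fun τ a => rfl
  have hfree : ∀ τ : W, τ ≠ 1 → ∀ v, Θ τ v = v → v = 0 := by
    intro τ hτ v hv
    obtain ⟨a, rfl⟩ : ∃ a : Y, v = Additive.ofMul (a : Y ⧸ E) := by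
      obtain ⟨a, ha⟩ := QuotientGroup.mk_surjective (Additive.toMul v)
      exact ⟨a, by rw [ha]; rfl⟩
    rw [hΘ] at hv
    have h1 : ((τ : MulAut Y) a : Y ⧸ E) = (a : Y ⧸ E) := Additive.ofMul.injective hv
    rw [eq_comm, QuotientGroup.eq] at h1
    obtain ⟨k, hk⟩ := hWr τ
    have hτ' : (τ : MulAut Y) ^ r ^ k = 1 := by
      have := congrArg Subtype.val hk
      simpa using this
    have h2 := fixed_of_coset hE (τ : MulAut Y) (hrodd.pow) hτ' (hWE _ τ.2) h1 (mul_inv_cancel_left a _).symm
    have h3 := hWs _ τ.2 (fun h => hτ (Subtype.ext h)) a h2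
    have h4 : (a : Y ⧸ E) = 1 := (QuotientGroup.eq_one_iff a).2 h3
    rw [h4]
    rfl
  set x' : W := (x : W) with hx'
  set y' : W := (y : W) with hy'
  have hcomm : Commute x' y' := by
    have : x * y = y * x := mul_comm x y
    exact congrArg Subtype.val this
  have hy'r : y' ^ r = 1 := congrArg Subtype.val hyq
  have hx'r : x' ^ r = 1 := congrArg Subtype.val hxq
  have hy'1 : y' ≠ 1 := fun h => hy1 (Subtype.ext h)
  have hy'o : orderOf y' = r := orderOf_eq_prime hy'r hy'1
  have hxy' : ∀ j : ℕ, x' * y' ^ j ≠ 1 := by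
    intro j h
    apply hxy j
    apply Subtype.ext
    exact h
  have hkey : ((r : ℕ) : AddMonoid.End (Additive (Y ⧸ E))) = 0 := by
    apply Cfsg.Agent.Lib.CoprimeGen.Basic.ring_identity (a := Θ y') (b := Θ x')
      (p := r) (by
        have := congrArg (fun z => Θ z) hcomm.eq
        simp only [map_mul] at this
        exact this.symm) hrp.pos
    · intro i hi0 hir
      apply Cfsg.Agent.Lib.CoprimeGen.Basic.sum_pow_eq_zero
      · rw [← map_pow, ← map_pow, ← pow_mul, mul_comm, pow_mul, hy'r, one_pow, map_one]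
      · rw [← map_pow]
        apply hfree
        exact pow_ne_one_of_lt_orderOf hi0.ne' (by rw [hy'o]; exact hir)
    · intro k _
      apply Cfsg.Agent.Lib.CoprimeGen.Basic.sum_pow_eq_zero
      · rw [← map_pow, ← map_mul, ← map_pow, (hcomm.pow_right k).mul_pow, hx'r, one_mul, ← pow_mul, mul_comm,
          pow_mul, hy'r, one_pow, map_one]
      · rw [← map_pow, ← map_mul]
        exact hfree _ (hxy' k)
  -- conclusion
  apply hy₀
  have h1 := congrArg (fun f : AddMonoid.End (Additive (Y ⧸ E)) => f (Additive.ofMul (y₀ : Y ⧸ E))) hkey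
  simp only [AddMonoid.End.natCast_apply, AddMonoid.End.zero_apply] at h1
  have h2 : ((y₀ : Y ⧸ E)) ^ r = 1 := Additive.ofMul.injective h1
  obtain ⟨k, hk⟩ := hrodd
  rw [hk, pow_succ, pow_mul, sq, hU2, one_pow, one_mul] at h2
  exact (QuotientGroup.eq_one_iff y₀).1 h2

end cyclic

end Cfsg.Agent.Lib.TwoAuto.Semi
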