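/-
Solvable groups in which all involutions are conjugate have 2-length at most one.
-/
import Cfsg.Agent.Lib.TwoAuto.Semi
import Cfsg.Agent.Lib.Coprime.Abelian
import Cfsg.Agent.Lib.Coprime.Complement
import Cfsg.Agent.Lib.Core.PLength
import Cfsg.Agent.Lib.Core.PSolvable2
import Cfsg.Agent.Lib.CaseTh.SolvableCharP2
import Cfsg.Agent.Lib.PGroups.Basic

set_option autoImplicit false
set_option linter.style.haveILetI false
set_option linter.unusedSectionVars false

namespace Cfsg.Agent.Lib.TwoAuto.Main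

open Cfsg Cfsg.Agent.Lib.TwoAuto.Count Cfsg.Agent.Lib.TwoAuto.Semi Cfsg.Agent.Lib.Core.Basic
  Cfsg.Agent.Lib.Core.PSolvable Cfsg.Agent.Lib.Core.PLength Cfsg.Agent.Lib.Coprime.Action
  Cfsg.Agent.Lib.Coprime.SchurZassenhaus
open scoped commutatorElement Pointwise

universe u

section elem

variable {G : Type*} [Group G]

/-- `2`-elements. -/
def Two (g : G) : Prop := ∃ k : ℕ, g ^ 2 ^ k = 1

lemma exists_inv_pow {g : G} (hg : Two g) (h1 : g ≠ 1) : ∃ e : ℕ, g ^ e ≠ 1 ∧ g ^ e * g ^ e = 1 := by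
  obtain ⟨k, hk⟩ := hg
  obtain ⟨s, -, hs⟩ := (Nat.dvd_prime_pow Nat.prime_two).1 (orderOf_dvd_of_pow_eq_one hk)
  have hs0 : s ≠ 0 := by
    rintro rfl
    rw [pow_zero, orderOf_eq_one_iff] at hs
    exact h1 hs
  obtain ⟨j, rfl⟩ := Nat.exists_eq_succ_of_ne_zero hs0
  refine ⟨2 ^ j, pow_ne_one_of_lt_orderOf (by positivity) ?_, ?_⟩
  · rw [hs]
    exact Nat.pow_lt_pow_right (by norm_num) (Nat.lt_succ_self j)
  · rw [← pow_add, ← two_mul, ← pow_succ', ← hs]
    exact pow_orderOf_eq_one g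

/-- A commutator of an element with a `2`-element, fixed by this element and of odd order, is trivial. -/
lemma comm_trivial {ρ t : G} {k o : ℕ} (ht : t ^ 2 ^ k = 1) (ho : Odd o) (hy : ⁅ρ, t⁆ ^ o = 1)
    (hc : t * ⁅ρ, t⁆ = ⁅ρ, t⁆ * t) : ⁅ρ, t⁆ = 1 := by
  set y := ⁅ρ, t⁆ with hydef
  have h0 : t * ρ⁻¹ * t⁻¹ = ρ⁻¹ * y := by
    rw [hydef, commutatorElement_def]
    group
  have h1 : ∀ n : ℕ, t ^ n * ρ⁻¹ * (t ^ n)⁻¹ = ρ⁻¹ * y ^ n := by
    intro n
    induction n with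
    | zero => simp
    | succ n ih =>
      calc t ^ (n + 1) * ρ⁻¹ * (t ^ (n + 1))⁻¹ = t * (t ^ n * ρ⁻¹ * (t ^ n)⁻¹) * t⁻¹ := by
            rw [pow_succ']; group
        _ = t * (ρ⁻¹ * y ^ n) * t⁻¹ := by rw [ih]
        _ = (t * ρ⁻¹ * t⁻¹) * (t * y ^ n * t⁻¹) := by group
        _ = (ρ⁻¹ * y) * y ^ n := by
            rw [h0, (show Commute t (y ^ n) from (show Commute t y from hc).pow_right n).eq]
            group
        _ = ρ⁻¹ * y ^ (n + 1) := by rw [pow_succ']; group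
  have h2 := h1 (2 ^ k)
  rw [ht] at h2
  have h3 : y ^ 2 ^ k = 1 := by
    have : ρ⁻¹ = ρ⁻¹ * y ^ 2 ^ k := by simpa using h2
    exact mul_left_cancel (a := ρ⁻¹) (by rw [mul_one]; exact this.symm)
  have h4 : y ^ Nat.gcd (2 ^ k) o = 1 := pow_gcd_eq_one.mpr ⟨h3, hy⟩
  have h5 : Nat.gcd (2 ^ k) o = 1 := Nat.Coprime.pow_left _ (Nat.coprime_two_left.2 ho)
  rw [h5, pow_one] at h4
  exact h4

end elem

section special

variable {G : Type*} [Group G] [Finite G]

/-- The structure of a minimal `N`-invariant subgroup not centralized by `R₀`. -/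
theorem special_of_minimal (P N R₀ Y E : Subgroup G) (hPp : IsPGroup 2 P) (hE₂ : ∀ x, x ∈ E ↔ x * x = 1)
    (hEP : ∀ z ∈ E, ∀ w ∈ P, z * w = w * z) (hR₀N : R₀ ≤ N) (hNR₀ : N ≤ Subgroup.normalizer (R₀ : Set G))
    (hR₀odd : Odd (Nat.card R₀)) (hER₀ : ∀ z ∈ E, ∀ ρ ∈ R₀, ρ * z = z * ρ) (hYP : Y ≤ P)
    (hYN : N ≤ Subgroup.normalizer (Y : Set G)) (hYR : ¬ R₀ ≤ Subgroup.centralizer (Y : Set G))
    (hYmin : ∀ Y' : Subgroup G, Y' ≤ Y → N ≤ Subgroup.normalizer (Y' : Set G) →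
      ¬ R₀ ≤ Subgroup.centralizer (Y' : Set G) → Y' = Y) :
    Sp (E.subgroupOf Y) ∧ ∃ y₀ : Y, (y₀ : G) ∉ E := by
  classical
  haveI : Fact (Nat.Prime 2) := ⟨Nat.prime_two⟩
  have hYp : IsPGroup 2 Y := hPp.to_le hYP
  have hcop : (Nat.card R₀).Coprime (Nat.card Y) := by
    obtain ⟨n, hn⟩ := IsPGroup.iff_card.1 hYp
    rw [hn]
    exact Nat.Coprime.pow_right _ (Nat.coprime_two_right.2 hR₀odd)
  have hsolvY : Group.IsSolvable Y := by
    haveI : Group.IsNilpotent Y := hYp.isNilpotent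
    infer_instance
  have hR₀Y : R₀ ≤ Subgroup.normalizer (Y : Set G) := hR₀N.trans hYN
  have hY0 : Y ≠ ⊥ := by
    rintro rfl
    apply hYR
    intro ρ _
    rw [Subgroup.mem_centralizer_iff]
    intro y hy
    rw [SetLike.mem_coe, Subgroup.mem_bot] at hy
    rw [hy, one_mul, mul_one]
  -- `Y = [Y, R₀]`
  have hYc : ⁅Y, R₀⁆ = Y := by
    apply hYmin _ (commutator_le_of_le_normalizer hR₀Y)
      (le_normalizer_commutator_of_le hYN hNR₀)
    intro hle
    have h1 : ⁅⁅Y, R₀⁆, R₀⁆ = ⁅Y, R₀⁆ := commutator_commutator_eq hR₀Y hcop (Or.inr hsolvY)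
    have h2 : ⁅R₀, ⁅Y, R₀⁆⁆ = ⊥ := Subgroup.commutator_eq_bot_iff_le_centralizer.2 hle
    rw [Subgroup.commutator_comm, h1] at h2
    apply hYR
    rw [← Subgroup.commutator_eq_bot_iff_le_centralizer, Subgroup.commutator_comm]
    exact h2
  -- the squares
  let Mq : Subgroup G := Subgroup.closure {x | ∃ y ∈ Y, x = y * y}
  have hMqY : Mq ≤ Y := by
    rw [Subgroup.closure_le]
    rintro _ ⟨y, hy, rfl⟩
    exact Y.mul_mem hy hy
  have hsq : ∀ y ∈ Y, y * y ∈ Mq := fun y hy => Subgroup.subset_closure ⟨y, hy, rfl⟩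
  have hMqN : N ≤ Subgroup.normalizer (Mq : Set G) := by
    rw [Subgroup.le_normalizer_iff]
    intro n hn x hx
    induction hx using Subgroup.closure_induction with
    | mem x hx =>
      obtain ⟨y, hy, rfl⟩ := hx
      have h1 : n * y * n⁻¹ ∈ Y := Subgroup.le_normalizer_iff.1 hYN n hn y hy
      have h2 := hsq _ h1
      have h3 : n * y * n⁻¹ * (n * y * n⁻¹) = n * (y * y) * n⁻¹ := by group
      rwa [h3] at h2
    | one => simp
    | mul a b _ _ ha hb =>
      have h3 : n * (a * b) * n⁻¹ = (n * a * n⁻¹) * (n * b * n⁻¹) := by group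
      rw [h3]
      exact Mq.mul_mem ha hb
    | inv a _ ha =>
      have h3 : n * a⁻¹ * n⁻¹ = (n * a * n⁻¹)⁻¹ := by group
      rw [h3]
      exact Mq.inv_mem ha
  have hMqne : Mq ≠ Y := by
    intro h
    haveI hnt : Nontrivial Y := (Subgroup.nontrivial_iff_ne_bot Y).2 hY0
    have hbot : (⊥ : Subgroup Y) ≠ ⊤ := bot_ne_top
    obtain ⟨M, hM, -⟩ := (eq_top_or_exists_le_coatom (⊥ : Subgroup Y)).resolve_left hbot
    have hfr : frattini Y ≤ M := by
      unfold frattini Order.radical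
      exact iInf₂_le M hM
    have h1 : ∀ y : Y, y ∈ frattini Y := by
      have h2 : ∀ x : G, x ∈ Mq → ∀ hx : x ∈ Y, (⟨x, hx⟩ : Y) ∈ frattini Y := by
        intro x hx
        induction hx using Subgroup.closure_induction with
        | mem x hx =>
          obtain ⟨y, hy, rfl⟩ := hx
          intro _
          have h3 := Cfsg.Agent.Lib.PGroups.Basic.pow_mem_frattini hYp (⟨y, hy⟩ : Y)
          rw [sq] at h3
          exact h3
        | one => intro _; exact Subgroup.one_mem _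
        | mul a b ha hb iha ihb =>
          intro _
          have h3 := (frattini Y).mul_mem (iha (hMqY ha)) (ihb (hMqY hb))
          exact h3
        | inv a ha iha =>
          intro _
          have h3 := (frattini Y).inv_mem (iha (hMqY ha))
          exact h3
      intro y
      exact h2 y (by rw [h]; exact y.2) y.2
    apply hM.1
    rw [eq_top_iff]
    intro y _
    exact hfr (h1 y)
  have hMqC : R₀ ≤ Subgroup.centralizer (Mq : Set G) := by
    by_contra hcon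
    exact hMqne (hYmin Mq hMqY hMqN hcon)
  have hMρ : ∀ m ∈ Mq, ∀ ρ ∈ R₀, m * ρ = ρ * m := by
    intro m hm ρ hρ
    exact Subgroup.mem_centralizer_iff.1 (hMqC hρ) m hm
  -- commutators are in `Mq`
  have hcommMq : ∀ a ∈ Y, ∀ b ∈ Y, ⁅a, b⁆ ∈ Mq := by
    intro a ha b hb
    have h1 : ⁅a, b⁆ = (a * b) * (a * b) * ((b⁻¹ * a⁻¹ * b) * (b⁻¹ * a⁻¹ * b)) * (b⁻¹ * b⁻¹) := by
      rw [commutatorElement_def]
      group
    rw [h1]
    exact Mq.mul_mem (Mq.mul_mem (hsq _ (Y.mul_mem ha hb))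
      (hsq _ (Y.mul_mem (Y.mul_mem (Y.inv_mem hb) (Y.inv_mem ha)) hb))) (hsq _ (Y.inv_mem hb))
  -- elements centralized by `R₀` are central in `Y`
  have hcentral : ∀ d ∈ Y, (∀ ρ ∈ R₀, d * ρ = ρ * d) → ∀ y ∈ Y, d * y = y * d := by
    intro d hd hdρ
    have h1 : ⁅Y, R₀⁆ ≤ Subgroup.centralizer ({d} : Set G) := by
      rw [Subgroup.commutator_le]
      intro y' hy' ρ hρ
      rw [Subgroup.mem_centralizer_iff]
      intro x hx
      have hx' : x = d := hx
      rw [hx']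
      set y := y'⁻¹ with hy
      have hyY : y ∈ Y := Y.inv_mem hy'
      set c := ⁅d, y⁆ with hc
      have hcρ : c * ρ = ρ * c := hMρ c (hcommMq d hd y hyY) ρ hρ
      have h2 : d * y = c * y * d := by
        rw [hc, commutatorElement_def]; group
      have h3 : d * ρ⁻¹ = ρ⁻¹ * d := by
        have := hdρ ρ hρ
        calc d * ρ⁻¹ = ρ⁻¹ * (ρ * d) * ρ⁻¹ := by group
          _ = ρ⁻¹ * (d * ρ) * ρ⁻¹ := by rw [this]
          _ = ρ⁻¹ * d := by group
      have h4 : d * (ρ * y * ρ⁻¹) = c * (ρ * y * ρ⁻¹) * d := by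
        calc d * (ρ * y * ρ⁻¹) = (d * ρ) * y * ρ⁻¹ := by group
          _ = (ρ * d) * y * ρ⁻¹ := by rw [hdρ ρ hρ]
          _ = ρ * (d * y) * ρ⁻¹ := by group
          _ = ρ * (c * y * d) * ρ⁻¹ := by rw [h2]
          _ = (ρ * c) * y * (d * ρ⁻¹) := by group
          _ = (c * ρ) * y * (ρ⁻¹ * d) := by rw [hcρ, h3]
          _ = c * (ρ * y * ρ⁻¹) * d := by group
      have h5 : d * y⁻¹ = y⁻¹ * c⁻¹ * d := by
        calc d * y⁻¹ = y⁻¹ * c⁻¹ * (c * y * d) * y⁻¹ := by group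
          _ = y⁻¹ * c⁻¹ * (d * y) * y⁻¹ := by rw [h2]
          _ = y⁻¹ * c⁻¹ * d := by group
      have h6 : ⁅y', ρ⁆ = y⁻¹ * (ρ * y * ρ⁻¹) := by
        rw [hy, commutatorElement_def]
        group
      rw [h6]
      calc d * (y⁻¹ * (ρ * y * ρ⁻¹)) = (d * y⁻¹) * (ρ * y * ρ⁻¹) := by group
        _ = y⁻¹ * c⁻¹ * (d * (ρ * y * ρ⁻¹)) := by rw [h5]; group
        _ = y⁻¹ * c⁻¹ * (c * (ρ * y * ρ⁻¹) * d) := by rw [h4]
        _ = y⁻¹ * (ρ * y * ρ⁻¹) * d := by group
    rw [hYc] at h1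
    intro y hy
    have h2 := h1 hy
    rw [Subgroup.mem_centralizer_iff] at h2
    exact (h2 d rfl)
  have hMc : ∀ m ∈ Mq, ∀ y ∈ Y, m * y = y * m := fun m hm =>
    hcentral m (hMqY hm) (fun ρ hρ => hMρ m hm ρ hρ)
  -- `Y` is not abelian
  have hnab : ¬ ∀ a ∈ Y, ∀ b ∈ Y, a * b = b * a := by
    intro hab
    haveI : IsMulCommutative Y := ⟨⟨fun a b => Subtype.ext (hab a a.2 b b.2)⟩⟩
    apply hYR
    apply Cfsg.Agent.Lib.Coprime.Abelian.le_centralizer_of_fixes_prime_order hR₀Y hcop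
    intro v hv hvo ρ hρ
    have h1 : orderOf v = 2 := by
      obtain ⟨k, hk⟩ := IsPGroup.iff_orderOf.1 hYp ⟨v, hv⟩
      have hk' : orderOf v = 2 ^ k := by rw [← hk]; exact (Subgroup.orderOf_mk v hv).symm
      rw [hk'] at hvo ⊢
      have := (Nat.prime_dvd_prime_iff_eq Nat.prime_two hvo).1 (by
        rcases k with _ | k
        · simp at hvo
          exact absurd hvo Nat.not_prime_one
        · exact dvd_pow_self 2 (by omega))
      exact this.symm
    have h2 : v * v = 1 := by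
      rw [← sq, ← h1]
      exact pow_orderOf_eq_one v
    exact hER₀ v ((hE₂ v).2 h2) ρ hρ
  -- commutators are in `E`
  have hcommE : ∀ a ∈ Y, ∀ b ∈ Y, ⁅a, b⁆ ∈ E := by
    intro a ha b hb
    rw [hE₂]
    set k := ⁅a, b⁆ with hk
    have hkc : ∀ y ∈ Y, k * y = y * k := hMc k (hcommMq a ha b hb)
    have h1 : a * b = k * b * a := by
      rw [hk, commutatorElement_def]; group
    have h2 : (a * a) * b = k * k * b * (a * a) := by
      calc (a * a) * b = a * (a * b) := by group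
        _ = a * (k * b * a) := by rw [h1]
        _ = (a * k) * b * a := by group
        _ = (k * a) * b * a := by rw [hkc a ha]
        _ = k * (a * b) * a := by group
        _ = k * (k * b * a) * a := by rw [h1]
        _ = k * k * b * (a * a) := by group
    have h3 : (a * a) * b = b * (a * a) := hMc _ (hsq a ha) b hb
    rw [h3] at h2
    have h4 : (k * k) * b = b := by
      have h5 : (k * k) * b * (a * a) = b * (a * a) := h2.symm
      exact mul_right_cancel h5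
    exact mul_eq_right.1 h4
  -- squares are in `E`
  have hsqE : ∀ y ∈ Y, y * y ∈ E := by
    -- the subgroup of elements whose square is in `E`
    let W : Subgroup G :=
      { carrier := {u | u ∈ Y ∧ u * u ∈ E}
        one_mem' := ⟨Y.one_mem, by simp⟩
        mul_mem' := by
          rintro u v ⟨hu, hu'⟩ ⟨hv, hv'⟩
          refine ⟨Y.mul_mem hu hv, ?_⟩
          have h1 : ⁅v, u⁆ ∈ Mq := hcommMq v hv u hu
          have h2 : (u * v) * (u * v) = ⁅v, u⁆ * ((u * u) * (v * v)) := by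
            have h3 : v * u = ⁅v, u⁆ * u * v := by
              rw [commutatorElement_def]; group
            calc (u * v) * (u * v) = u * (v * u) * v := by group
              _ = u * (⁅v, u⁆ * u * v) * v := by rw [← h3]
              _ = (u * ⁅v, u⁆) * u * v * v := by group
              _ = (⁅v, u⁆ * u) * u * v * v := by rw [hMc _ h1 u hu]
              _ = ⁅v, u⁆ * ((u * u) * (v * v)) := by group
          rw [h2]
          exact E.mul_mem (hcommE v hv u hu) (E.mul_mem hu' hv')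
        inv_mem' := by
          rintro u ⟨hu, hu'⟩
          refine ⟨Y.inv_mem hu, ?_⟩
          have : u⁻¹ * u⁻¹ = (u * u)⁻¹ := by group
          rw [this]
          exact E.inv_mem hu' }
    have hW : ⁅Y, R₀⁆ ≤ W := by
      rw [Subgroup.commutator_le]
      intro y' hy' ρ hρ
      set y := y'⁻¹ with hy
      have hyY : y ∈ Y := Y.inv_mem hy'
      have h6 : ⁅y', ρ⁆ = y⁻¹ * (ρ * y * ρ⁻¹) := by
        rw [hy, commutatorElement_def]
        group
      set y₁ := ⁅y', ρ⁆ with hy₁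
      have hy₁Y : y₁ ∈ Y := by
        rw [← hYc]
        exact Subgroup.commutator_mem_commutator hy' hρ
      refine ⟨hy₁Y, ?_⟩
      have h7 : ρ * y * ρ⁻¹ = y * y₁ := by
        rw [h6]; group
      have h1 : ⁅y₁, y⁆ ∈ Mq := hcommMq _ hy₁Y _ hyY
      have h2 : (y * y₁) * (y * y₁) = ⁅y₁, y⁆ * ((y * y) * (y₁ * y₁)) := by
        have h3 : y₁ * y = ⁅y₁, y⁆ * y * y₁ := by
          rw [commutatorElement_def]; group
        calc (y * y₁) * (y * y₁) = y * (y₁ * y) * y₁ := by group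
          _ = y * (⁅y₁, y⁆ * y * y₁) * y₁ := by rw [← h3]
          _ = (y * ⁅y₁, y⁆) * y * y₁ * y₁ := by group
          _ = (⁅y₁, y⁆ * y) * y * y₁ * y₁ := by rw [hMc _ h1 y hyY]
          _ = ⁅y₁, y⁆ * ((y * y) * (y₁ * y₁)) := by group
      have h3 : (ρ * y * ρ⁻¹) * (ρ * y * ρ⁻¹) = y * y := by
        have h4 : (ρ * y * ρ⁻¹) * (ρ * y * ρ⁻¹) = ρ * (y * y) * ρ⁻¹ := by group
        rw [h4, ← hMρ _ (hsq y hyY) ρ hρ]
        group
      rw [h7, h2] at h3
      -- `[y₁, y] y² y₁² = y²`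
      have h4 : ⁅y₁, y⁆ * ((y * y) * (y₁ * y₁)) = (y * y) * (⁅y₁, y⁆ * (y₁ * y₁)) := by
        calc ⁅y₁, y⁆ * ((y * y) * (y₁ * y₁)) = (⁅y₁, y⁆ * (y * y)) * (y₁ * y₁) := by group
          _ = ((y * y) * ⁅y₁, y⁆) * (y₁ * y₁) := by
              rw [hMc _ h1 _ (hMqY (hsq y hyY))]
          _ = (y * y) * (⁅y₁, y⁆ * (y₁ * y₁)) := by group
      rw [h4] at h3
      have h5 : ⁅y₁, y⁆ * (y₁ * y₁) = 1 := mul_eq_left.1 h3
      have h8 : y₁ * y₁ = ⁅y₁, y⁆⁻¹ := eq_inv_of_mul_eq_one_right h5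
      rw [h8]
      exact E.inv_mem (hcommE _ hy₁Y _ hyY)
    rw [hYc] at hW
    exact fun y hy => (hW hy).2
  -- conclusion
  refine ⟨?_, ?_⟩
  · refine ⟨?_, ?_, ?_, ?_, ?_⟩
    · intro z hz u
      apply Subtype.ext
      exact hEP z hz u (hYP u.2)
    · intro z hz
      apply Subtype.ext
      exact (hE₂ _).1 hz
    · intro u
      exact hsqE u u.2
    · intro u v
      exact hcommE u u.2 v v.2
    · intro u hu
      exact (hE₂ _).2 (congrArg Subtype.val hu)
  · by_contra hcon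
    push Not at hcon
    apply hnab
    intro a ha b hb
    exact hEP a (hcon ⟨a, ha⟩) b (hYP hb)

end special

end Cfsg.Agent.Lib.TwoAuto.Main
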