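/-
Elementary tools for groups all of whose involutions are conjugate.
-/
import Cfsg.Agent.Lib.TwoAuto.Main

set_option autoImplicit false
set_option linter.style.haveILetI false
set_option linter.unusedSectionVars false

namespace Cfsg.Agent.Lib.TwoAuto.Reduce

open Cfsg Cfsg.Agent.Lib.Core.Basic Cfsg.Agent.Lib.Core.PLength Cfsg.Agent.Lib.Core.Series
  Cfsg.Agent.Lib.TwoAuto.Main
open scoped commutatorElement Pointwise

universe u

/-- All involutions are conjugate. -/
def AllConj (G : Type*) [Group G] : Prop :=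
  ∀ x y : G, x ≠ 1 → x * x = 1 → y ≠ 1 → y * y = 1 → IsConj x y

section lifts

variable {W : Type*} [Group W] [Finite W]

/-- Lifting involutions through a normal subgroup of odd order. -/
lemma lift_inv (M : Subgroup W) [M.Normal] (hM : Odd (Nat.card M)) (ybar : W ⧸ M) (h1 : ybar ≠ 1)
    (h2 : ybar * ybar = 1) : ∃ y : W, y ≠ 1 ∧ y * y = 1 ∧ (y : W ⧸ M) = ybar := by
  obtain ⟨g, rfl⟩ := QuotientGroup.mk_surjective ybar
  have hgp : g * g ∈ M := by
    rw [← QuotientGroup.eq_one_iff, QuotientGroup.mk_mul]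
    exact h2
  have h3 : g ^ Nat.card M * g ^ Nat.card M = 1 := by
    rw [← pow_add, ← two_mul, pow_mul, sq]
    have := pow_card_eq_one' (x := (⟨g * g, hgp⟩ : M))
    exact congrArg Subtype.val this
  have h4 : ((g ^ Nat.card M : W) : W ⧸ M) = (g : W ⧸ M) := by
    obtain ⟨k, hk⟩ := hM
    rw [QuotientGroup.mk_pow, hk, pow_succ, pow_mul, sq, h2, one_pow, one_mul]
  refine ⟨g ^ Nat.card M, ?_, h3, h4⟩
  intro h
  rw [h] at h4
  exact h1 h4.symm

/-- The `2`-part of a lift of a `2`-element. -/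
lemma two_lift {A B : Type*} [Group A] [Group B] [Finite A] (f : A →* B) (m : A) {k : ℕ}
    (hk : f m ^ 2 ^ k = 1) : ∃ e : ℕ, Two (m ^ e) ∧ f (m ^ e) = f m := by
  have ho : orderOf m ≠ 0 := (orderOf_pos m).ne'
  obtain ⟨a, b, hb, hab⟩ := Nat.exists_eq_two_pow_mul_odd ho
  have hcop : Nat.Coprime b (2 ^ (k + 1)) := Nat.Coprime.pow_right _ (Nat.coprime_two_right.2 hb)
  obtain ⟨c, -, hc⟩ := Nat.exists_mul_mod_eq_one_of_coprime hcop (by
    have : 2 ^ 1 ≤ 2 ^ (k + 1) := Nat.pow_le_pow_right (by norm_num) (by omega)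
    omega)
  refine ⟨b * c, ⟨a, ?_⟩, ?_⟩
  · rw [← pow_mul]
    have : b * c * 2 ^ a = orderOf m * c := by rw [hab]; ring
    rw [this, pow_mul, pow_orderOf_eq_one, one_pow]
  · rw [map_pow]
    have h1 : f m ^ 2 ^ (k + 1) = 1 := by
      rw [pow_succ, pow_mul, hk, one_pow]
    rw [pow_eq_pow_mod (b * c) h1, hc, pow_one]

end lifts

section cyc

variable {Γ : Type*} [Group Γ]

/-- Commutators of elements normalizing a cyclic subgroup centralize it. -/
lemma comm_of_cyclic_normal (W : Subgroup Γ) [hW : IsCyclic W] {a b : Γ}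
    (ha : a ∈ Subgroup.normalizer (W : Set Γ)) (hb : b ∈ Subgroup.normalizer (W : Set Γ)) :
    ∀ w ∈ W, ⁅a, b⁆ * w * ⁅a, b⁆⁻¹ = w := by
  obtain ⟨c, hc⟩ := hW
  have hgen : ∀ w ∈ W, ∃ n : ℤ, (c : Γ) ^ n = w := by
    intro w hw
    obtain ⟨n, hn⟩ := hc ⟨w, hw⟩
    refine ⟨n, ?_⟩
    have := congrArg Subtype.val hn
    simpa using this
  have hca : a * (c : Γ) * a⁻¹ ∈ W := (Subgroup.mem_normalizer_iff.1 ha _).1 c.2
  have hcb : b * (c : Γ) * b⁻¹ ∈ W := (Subgroup.mem_normalizer_iff.1 hb _).1 c.2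
  obtain ⟨i, hi⟩ := hgen _ hca
  obtain ⟨j, hj⟩ := hgen _ hcb
  have hpa : ∀ n : ℤ, a * (c : Γ) ^ n * a⁻¹ = ((c : Γ) ^ i) ^ n := by
    intro n
    rw [hi, ← conj_zpow]
  have hpb : ∀ n : ℤ, b * (c : Γ) ^ n * b⁻¹ = ((c : Γ) ^ j) ^ n := by
    intro n
    rw [hj, ← conj_zpow]
  have hab : ∀ w ∈ W, (a * b) * w * (a * b)⁻¹ = (b * a) * w * (b * a)⁻¹ := by
    intro w hw
    obtain ⟨n, rfl⟩ := hgen w hw
    have h1 : (a * b) * (c : Γ) ^ n * (a * b)⁻¹ = a * (b * (c : Γ) ^ n * b⁻¹) * a⁻¹ := by group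
    have h2 : (b * a) * (c : Γ) ^ n * (b * a)⁻¹ = b * (a * (c : Γ) ^ n * a⁻¹) * b⁻¹ := by group
    rw [h1, h2, hpb, hpa, ← zpow_mul, ← zpow_mul, hpa, hpb, ← zpow_mul, ← zpow_mul]
    congr 1
    ring
  intro w hw
  have hw' : (b * a)⁻¹ * w * (b * a) ∈ W := by
    have h1 : (b * a) ∈ Subgroup.normalizer (W : Set Γ) := Subgroup.mul_mem _ hb ha
    have h2 := (Subgroup.mem_normalizer_iff.1 ((Subgroup.normalizer (W : Set Γ)).inv_mem h1) w).1 hw
    simpa using h2
  have h3 := hab _ hw'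
  have h4 : (b * a) * ((b * a)⁻¹ * w * (b * a)) * (b * a)⁻¹ = w := by group
  rw [h4] at h3
  have h5 : ⁅a, b⁆ * w * ⁅a, b⁆⁻¹ = (a * b) * ((b * a)⁻¹ * w * (b * a)) * (a * b)⁻¹ := by
    rw [commutatorElement_def]
    group
  rw [h5]
  exact h3

end cyc

section derangement

/-- Jordan's lemma: a transitive action on at least two points has a fixed point free element. -/
lemma exists_derangement {Γ Ω : Type*} [Group Γ] [Finite Γ] [Finite Ω] [MulAction Γ Ω]
    [MulAction.IsPretransitive Γ Ω] [Nontrivial Ω] : ∃ g : Γ, ∀ ω : Ω, g • ω ≠ ω := by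
  classical
  haveI := Fintype.ofFinite Γ
  haveI := Fintype.ofFinite Ω
  by_contra hcon
  push Not at hcon
  have hb := MulAction.sum_card_fixedBy_eq_card_orbits_mul_card_group Γ Ω
  have horb : Nat.card (MulAction.orbitRel.Quotient Γ Ω) = 1 := by
    rw [Nat.card_eq_one_iff_unique]
    refine ⟨⟨?_⟩, ?_⟩
    · intro a b
      induction a using Quotient.inductionOn with
      | _ a =>
        induction b using Quotient.inductionOn with
        | _ b =>
          apply Quotient.sound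
          exact MulAction.IsPretransitive.exists_smul_eq b a
    · obtain ⟨ω⟩ : Nonempty Ω := inferInstance
      exact ⟨Quotient.mk _ ω⟩
  have h0 : ∀ g : Γ, 1 ≤ Nat.card (MulAction.fixedBy Ω g) := by
    intro g
    obtain ⟨ω, hω⟩ := hcon g
    have : Nonempty (MulAction.fixedBy Ω g) := ⟨⟨ω, hω⟩⟩
    exact Nat.card_pos
  have h1 : 2 ≤ Nat.card (MulAction.fixedBy Ω (1 : Γ)) := by
    have h2 : Nat.card (MulAction.fixedBy Ω (1 : Γ)) = Nat.card Ω := by
      apply Nat.card_congr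
      rw [MulAction.fixedBy_one_eq_univ]
      exact Equiv.Set.univ Ω
    rw [h2]
    exact Finite.one_lt_card
  have h3 : ∑ g : Γ, 1 < ∑ g : Γ, Nat.card (MulAction.fixedBy Ω g) := by
    apply Finset.sum_lt_sum
    · intro g _
      exact h0 g
    · exact ⟨1, Finset.mem_univ _, by omega⟩
  have h4 : ∑ g : Γ, Nat.card (MulAction.fixedBy Ω g) = Nat.card Γ := by
    have := hb
    simp only [Nat.card_eq_fintype_card] at this ⊢
    rw [Nat.card_eq_fintype_card] at horb
    rw [horb, one_mul] at this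
    simpa using this
  simp only [Finset.sum_const, Finset.card_univ, smul_eq_mul, mul_one] at h3
  rw [h4, Nat.card_eq_fintype_card] at h3
  exact lt_irrefl _ h3

end derangement

section fpf

variable {S : Type*} [Group S] [Finite S]

/-- A fixed point free automorphism of a finite group: every element is a `u⁻¹ σ(u)`. -/
lemma exists_comm_of_fpf (σ : S ≃* S) (hσ : ∀ u, σ u = u → u = 1) (t : S) :
    ∃ u, u⁻¹ * σ u = t := by
  have hinj : Function.Injective (fun u : S => u⁻¹ * σ u) := by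
    intro a b hab
    have h1 : a⁻¹ * σ a = b⁻¹ * σ b := hab
    have h2 : σ (b * a⁻¹) = b * a⁻¹ := by
      rw [map_mul, map_inv]
      calc σ b * (σ a)⁻¹ = b * (b⁻¹ * σ b) * (σ a)⁻¹ := by group
        _ = b * (a⁻¹ * σ a) * (σ a)⁻¹ := by rw [h1]
        _ = b * a⁻¹ := by group
    have h3 := hσ _ h2
    have h4 : b = a := by
      rw [mul_inv_eq_one] at h3
      exact h3
    exact h4.symm
  exact (Finite.injective_iff_surjective.1 hinj) t

end fpf

section two

variable {X : Type u} [Group X] [Finite X]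

/-- `z` an involution, `u` a `2`-element: `[z,u]` is in `O(X)` when `X` has `2`-length at most one. -/
lemma comm_mem_core (hconj : AllConj X) (hL : PLengthLE 2 1 X) {z u : X} (hz1 : z ≠ 1)
    (hz : z * z = 1) (hu : Two u) : ⁅z, u⁆ ∈ pPrimeCore 2 X := by
  classical
  haveI : Fact (Nat.Prime 2) := ⟨Nat.prime_two⟩
  set O : Subgroup X := pPrimeCore 2 X with hOdef
  have hOc : (Nat.card O).Coprime 2 := pPrimeCore_coprime
  have hOodd : Odd (Nat.card O) := Nat.coprime_two_right.1 hOc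
  have hL' : (Nat.card (X ⧸ pPrimePCore 2 X)).Coprime 2 := by
    have h1 := pLengthLE_succ_iff.1 hL
    exact pLengthLE_zero_iff.1 h1
  have hin : ∀ x : X, Two x → (x : X ⧸ O) ∈ pCore 2 (X ⧸ O) := by
    intro x ⟨k, hk⟩
    change x ∈ pPrimePCore 2 X
    rw [← QuotientGroup.eq_one_iff]
    have h1 : ((x : X) : X ⧸ pPrimePCore 2 X) ^ 2 ^ k = 1 := by
      rw [← QuotientGroup.mk_pow, hk]
      rfl
    have h2 := orderOf_dvd_of_pow_eq_one h1
    have h3 : orderOf ((x : X) : X ⧸ pPrimePCore 2 X) ∣ Nat.card (X ⧸ pPrimePCore 2 X) :=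
      orderOf_dvd_natCard _
    have h4 : Nat.Coprime (orderOf ((x : X) : X ⧸ pPrimePCore 2 X)) (2 ^ k) :=
      Nat.Coprime.pow_right _ (Nat.Coprime.coprime_dvd_left h3 hL')
    have h5 := Nat.Coprime.eq_one_of_dvd h4 h2
    exact orderOf_eq_one_iff.1 h5
  -- the images
  set P : Subgroup (X ⧸ O) := pCore 2 (X ⧸ O) with hPdef
  have hPp : IsPGroup 2 P := pCore_isPGroup
  have hzP : (z : X ⧸ O) ∈ P := hin z ⟨1, by rw [pow_one, sq]; exact hz⟩
  have huP : (u : X ⧸ O) ∈ P := hin u hu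
  have hzbar : (z : X ⧸ O) ≠ 1 := by
    intro h
    rw [QuotientGroup.eq_one_iff] at h
    have h1 : orderOf (⟨z, h⟩ : O) = 2 := by
      rw [Subgroup.orderOf_mk]
      have h0 : z ^ 2 = 1 := by rw [sq]; exact hz
      exact orderOf_eq_prime h0 hz1
    have h2 := orderOf_dvd_natCard (⟨z, h⟩ : O)
    rw [h1] at h2
    have := Nat.Coprime.eq_one_of_dvd hOc.symm h2
    omega
  have hP0 : P ≠ ⊥ := by
    intro h
    rw [h, Subgroup.mem_bot] at hzP
    exact hzbar hzP
  obtain ⟨w, hw, hw1, hwc⟩ := Cfsg.Agent.Lib.Coprime.Complement.exists_ne_one_mem_centralizer hPp hPp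
    Subgroup.le_normalizer hP0
  have hwt : Two w := by
    obtain ⟨k, hk⟩ := IsPGroup.iff_orderOf.1 hPp ⟨w, hw⟩
    refine ⟨k, ?_⟩
    rw [Subgroup.orderOf_mk] at hk
    rw [← hk]
    exact pow_orderOf_eq_one w
  obtain ⟨e, he1, he2⟩ := exists_inv_pow hwt hw1
  obtain ⟨y, hy1, hy2, hy3⟩ := lift_inv O hOodd (w ^ e) he1 he2
  obtain ⟨c, hc⟩ := isConj_iff.1 (hconj y z hy1 hy2 hz1 hz)
  have hzc : (z : X ⧸ O) = (c : X ⧸ O) * w ^ e * (c : X ⧸ O)⁻¹ := by
    rw [← hc, QuotientGroup.mk_mul, QuotientGroup.mk_mul, QuotientGroup.mk_inv, hy3]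
  have hcen : (z : X ⧸ O) ∈ Subgroup.centralizer (P : Set (X ⧸ O)) := by
    rw [hzc]
    have h1 : w ^ e ∈ Subgroup.centralizer (P : Set (X ⧸ O)) := Subgroup.pow_mem _ hwc e
    haveI : (Subgroup.centralizer (P : Set (X ⧸ O))).Normal := inferInstance
    exact (inferInstance : (Subgroup.centralizer (P : Set (X ⧸ O))).Normal).conj_mem _ h1 _
  have h2 := Subgroup.mem_centralizer_iff.1 hcen _ huP
  rw [← QuotientGroup.eq_one_iff]
  rw [commutatorElement_def]
  simp only [QuotientGroup.mk_mul, QuotientGroup.mk_inv]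
  rw [← h2]
  group

/-- A solvable group with trivial `O₂` and even order has a `2`-element acting nontrivially on some
`O_r`, `r` odd. -/
lemma exists_noncommuting [hs : Group.IsSolvable X] (h0 : pCore 2 X = ⊥) (heven : ¬ (Nat.card X).Coprime 2) :
    ∃ r : ℕ, r.Prime ∧ r ≠ 2 ∧ ∃ t : X, Two t ∧ ∃ v ∈ pCore r X, t * v ≠ v * t := by
  classical
  haveI : Fact (Nat.Prime 2) := ⟨Nat.prime_two⟩
  by_contra hcon
  push Not at hcon
  set T : Subgroup X := Subgroup.closure {x : X | Two x} with hTdef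
  have hTn : T.Normal := by
    refine ⟨fun n hn g => ?_⟩
    induction hn using Subgroup.closure_induction with
    | mem x hx =>
      obtain ⟨k, hk⟩ := hx
      apply Subgroup.subset_closure
      refine ⟨k, ?_⟩
      rw [conj_pow, hk]
      group
    | one => simp
    | mul a b _ _ ha hb =>
      have h1 : g * (a * b) * g⁻¹ = (g * a * g⁻¹) * (g * b * g⁻¹) := by group
      rw [h1]
      exact T.mul_mem ha hb
    | inv a _ ha =>
      have h1 : g * a⁻¹ * g⁻¹ = (g * a * g⁻¹)⁻¹ := by group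
      rw [h1]
      exact T.inv_mem ha
  haveI := hTn
  set Q : Subgroup X := Subgroup.centralizer (T : Set X) with hQdef
  haveI hQn : Q.Normal := by rw [hQdef]; infer_instance
  have h1 : Subgroup.centralizer (Q : Set X) ≤ Q := by
    apply Cfsg.Agent.Lib.CaseTh.SolvableCharP2.centralizer_le_of_forall_pCore_le
    intro q hq
    by_cases hq2 : q = 2
    · rw [hq2, h0]
      exact bot_le
    intro v hv
    rw [hQdef, Subgroup.mem_centralizer_iff]
    intro t ht
    have h2 : T ≤ Subgroup.centralizer ({v} : Set X) := by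
      rw [hTdef, Subgroup.closure_le]
      intro x hx
      rw [SetLike.mem_coe, Subgroup.mem_centralizer_iff]
      intro v' hv'
      have hv'' : v' = v := hv'
      rw [hv'']
      exact (hcon q hq hq2 x hx v hv).symm
    have h3 := h2 ht
    rw [Subgroup.mem_centralizer_iff] at h3
    exact (h3 v rfl).symm
  have hTQ : T ≤ Q := by
    have h2 : T ≤ Subgroup.centralizer (Q : Set X) := by
      intro t ht
      rw [Subgroup.mem_centralizer_iff]
      intro q hq
      exact (Subgroup.mem_centralizer_iff.1 hq t ht).symm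
    exact h2.trans h1
  have hcomm : ∀ a ∈ T, ∀ b ∈ T, a * b = b * a := by
    intro a ha b hb
    exact Subgroup.mem_centralizer_iff.1 (hTQ hb) a ha
  have htwo : ∀ x ∈ T, Two x := by
    intro x hx
    induction hx using Subgroup.closure_induction with
    | mem x hx => exact hx
    | one => exact ⟨0, by simp⟩
    | mul a b ha hb iha ihb =>
      obtain ⟨k, hk⟩ := iha
      obtain ⟨l, hl⟩ := ihb
      refine ⟨k + l, ?_⟩
      have hc : Commute a b := hcomm a ha b hb
      rw [hc.mul_pow, pow_add, pow_mul, hk, one_pow, one_mul, mul_comm (2 ^ k), pow_mul, hl,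
        one_pow]
    | inv a _ iha =>
      obtain ⟨k, hk⟩ := iha
      exact ⟨k, by rw [inv_pow, hk, inv_one]⟩
  have hTp : IsPGroup 2 T := by
    intro g
    obtain ⟨k, hk⟩ := htwo g g.2
    exact ⟨k, Subtype.ext hk⟩
  have hTb : T = ⊥ := by
    rw [eq_bot_iff, ← h0]
    exact le_pCore hTn hTp
  have hd : 2 ∣ Nat.card X := by
    rw [Nat.coprime_comm, Nat.Prime.coprime_iff_not_dvd Nat.prime_two, not_not] at heven
    exact heven
  obtain ⟨y, hy⟩ := exists_prime_orderOf_dvd_card' (G := X) 2 hd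
  have hy1 : y ∈ T := Subgroup.subset_closure ⟨1, by rw [pow_one, ← hy]; exact pow_orderOf_eq_one y⟩
  rw [hTb, Subgroup.mem_bot] at hy1
  rw [hy1, orderOf_one] at hy
  omega

end two

section complement

open Cfsg.Agent.Lib.Coprime.SchurZassenhaus in
/-- A normal `p`-subgroup has a complement in a normal subgroup over it with `p'`-quotient, and the
Frattini argument applies. -/
theorem exists_complement {G : Type*} [Group G] [Finite G] {p : ℕ} [Fact p.Prime] (P K : Subgroup G)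
    [hPn : P.Normal] [hKn : K.Normal] (hPp : IsPGroup p P) (hPK : P ≤ K)
    (hKq : (Nat.card (K.map (QuotientGroup.mk' P))).Coprime p) :
    ∃ Q : Subgroup G, Q ≤ K ∧ P ⊔ Q = K ∧ P ⊓ Q = ⊥ ∧ Nat.card Q = Nat.card (K.map (QuotientGroup.mk' P)) ∧
      ∀ g : G, ∃ n ∈ P, n⁻¹ * g ∈ Subgroup.normalizer (Q : Set G) := by
  have hKcard : Nat.card (K.map (QuotientGroup.mk' P)) * Nat.card P = Nat.card K :=
    card_map_mk_of_le P K hPK
  obtain ⟨pk, hpk⟩ := IsPGroup.iff_card.1 hPp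
  haveI hPKn : (P.subgroupOf K).Normal := inferInstance
  have hidx : (P.subgroupOf K).index = Nat.card (K.map (QuotientGroup.mk' P)) := by
    have h1 := Subgroup.card_mul_index (P.subgroupOf K)
    rw [card_subgroupOf_of_le hPK] at h1
    apply Nat.eq_of_mul_eq_mul_left (Nat.card_pos (α := P))
    rw [h1, ← hKcard, mul_comm]
  have hcopN : Nat.Coprime (Nat.card (P.subgroupOf K)) (P.subgroupOf K).index := by
    rw [card_subgroupOf_of_le hPK, hidx, hpk]
    exact Nat.Coprime.pow_left _ hKq.symm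
  obtain ⟨H, hH⟩ := Subgroup.exists_right_complement'_of_coprime hcopN
  set Q : Subgroup G := H.map K.subtype with hQdef
  have hQK : Q ≤ K := by
    rintro _ ⟨x, -, rfl⟩
    exact x.2
  have hQcard : Nat.card Q = Nat.card (K.map (QuotientGroup.mk' P)) := by
    rw [hQdef, Subgroup.card_map_of_injective K.subtype_injective, ← hidx]
    exact hH.symm.index_eq_card.symm
  have hQcop : (Nat.card Q).Coprime p := by rw [hQcard]; exact hKq
  have hPQ : P ⊔ Q = K := by
    apply le_antisymm (sup_le hPK hQK)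
    have h1 := hH.sup_eq_top
    intro x hx
    have h2 : (⟨x, hx⟩ : K) ∈ P.subgroupOf K ⊔ H := by rw [h1]; exact Subgroup.mem_top _
    have h3 : (P.subgroupOf K ⊔ H).map K.subtype ≤ P ⊔ Q := by
      rw [Subgroup.map_sup]
      apply sup_le_sup
      · rintro _ ⟨y, hy, rfl⟩
        exact hy
      · exact le_rfl
    exact h3 ⟨_, h2, rfl⟩
  have hPQdisj : P ⊓ Q = ⊥ :=
    disjoint_of_coprime_card (by
      rw [hpk]
      exact Nat.Coprime.pow_left _ hQcop.symm)
  refine ⟨Q, hQK, hPQ, hPQdisj, hQcard, ?_⟩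
  intro g
  have hconjle : MulAut.conj g • Q ≤ P ⊔ Q := by
    rw [hPQ]
    rintro _ ⟨x, hx, rfl⟩
    exact hKn.conj_mem x (hQK hx) g
  obtain ⟨n, hn, hnc⟩ := Cfsg.Agent.Lib.Coprime.Complement.exists_conj_of_le_sup (N := P) (K := Q)
    (K₁ := MulAut.conj g • Q) (by
      rw [Subgroup.normalizer_eq_top_iff.mpr hPn]
      exact le_top)
    hconjle
    (card_conj_smul g Q)
    (by rw [hpk]; exact Nat.Coprime.pow_left _ hQcop.symm)
    (Or.inl (by
      haveI : Group.IsNilpotent P := hPp.isNilpotent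
      infer_instance))
  refine ⟨n, hn, ?_⟩
  rw [Subgroup.mem_normalizer_iff]
  intro x
  have key : ∀ y, n * y * n⁻¹ ∈ MulAut.conj g • Q ↔ y ∈ Q := by
    intro y
    rw [← hnc, mem_conj_smul_iff]
    have : n⁻¹ * (n * y * n⁻¹) * n = y := by group
    rw [this]
  have h1 := key (n⁻¹ * g * x * (n⁻¹ * g)⁻¹)
  rw [mem_conj_smul_iff] at h1
  have h2 : g⁻¹ * (n * (n⁻¹ * g * x * (n⁻¹ * g)⁻¹) * n⁻¹) * g = x := by group
  rw [h2] at h1
  exact h1

end complement

section comm

variable {X : Type*} [Group X] [Finite X]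

/-- Two involutions exist, all conjugate, and `2`-elements centralize the involutions: every
`2`-element is a commutator. -/
theorem exists_comm_of_two (E : Subgroup X) [hEn : E.Normal] (hE₂ : ∀ x, x ∈ E ↔ x * x = 1)
    (hconj : AllConj X) {x₀ y₀ : X} (hx₀ : x₀ ≠ 1) (hx₀2 : x₀ * x₀ = 1) (hy₀ : y₀ ≠ 1)
    (hy₀2 : y₀ * y₀ = 1) (hne : x₀ ≠ y₀) (hcent : ∀ t : X, Two t → ∀ z ∈ E, t * z = z * t) {t : X}
    (ht : Two t) : ∃ u g : X, t = ⁅u, g⁆ := by
  classical
  haveI : Fact (Nat.Prime 2) := ⟨Nat.prime_two⟩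
  have hzp : IsPGroup 2 (Subgroup.zpowers t) := by
    obtain ⟨k, hk⟩ := ht
    rintro ⟨g, n, rfl⟩
    refine ⟨k, Subtype.ext ?_⟩
    change (t ^ n) ^ 2 ^ k = 1
    rw [← zpow_natCast, ← zpow_mul, mul_comm, zpow_mul, zpow_natCast, hk, one_zpow]
  obtain ⟨S, hS⟩ := hzp.exists_le_sylow
  have htS : t ∈ (S : Subgroup X) := hS (Subgroup.mem_zpowers t)
  have hStwo : ∀ s ∈ (S : Subgroup X), Two s := by
    intro s hs
    obtain ⟨k, hk⟩ := S.isPGroup' ⟨s, hs⟩
    exact ⟨k, congrArg Subtype.val hk⟩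
  have hSC : (S : Subgroup X) ≤ Subgroup.centralizer (E : Set X) := by
    intro s hs
    rw [Subgroup.mem_centralizer_iff]
    intro z hz
    exact (hcent s (hStwo s hs) z hz).symm
  have hF := Sylow.normalizer_sup_eq_top' S hSC
  let Ω := {z : X // z ≠ 1 ∧ z * z = 1}
  let Γ : Subgroup X := Subgroup.normalizer ((S : Subgroup X) : Set X)
  letI : MulAction Γ Ω :=
    { smul := fun g z => ⟨(g : X) * z.1 * (g : X)⁻¹, by
        intro h
        apply z.2.1
        calc z.1 = (g : X)⁻¹ * ((g : X) * z.1 * (g : X)⁻¹) * (g : X) := by group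
          _ = 1 := by rw [h]; group, by
        have h1 : (g : X) * z.1 * (g : X)⁻¹ * ((g : X) * z.1 * (g : X)⁻¹) = (g : X) * (z.1 * z.1) * (g : X)⁻¹ := by
          group
        rw [h1, z.2.2]
        group⟩
      one_smul := fun z => Subtype.ext (by
        change ((1 : Γ) : X) * z.1 * ((1 : Γ) : X)⁻¹ = z.1
        simp)
      mul_smul := fun a b z => Subtype.ext (by
        change ((a * b : Γ) : X) * z.1 * ((a * b : Γ) : X)⁻¹ = (a : X) * ((b : X) * z.1 * (b : X)⁻¹) * (a : X)⁻¹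
        rw [Subgroup.coe_mul]
        group) }
  have hsmul : ∀ (g : Γ) (z : Ω), ((g • z : Ω) : X) = (g : X) * z.1 * (g : X)⁻¹ := fun _ _ => rfl
  haveI : MulAction.IsPretransitive Γ Ω := ⟨by
    intro a b
    obtain ⟨c, hc⟩ := isConj_iff.1 (hconj a.1 b.1 a.2.1 a.2.2 b.2.1 b.2.2)
    have h1 : c ∈ ((Γ ⊔ Subgroup.centralizer (E : Set X) : Subgroup X) : Set X) := by
      rw [SetLike.mem_coe]
      have : Γ ⊔ Subgroup.centralizer (E : Set X) = ⊤ := hF
      rw [this]
      exact Subgroup.mem_top c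
    rw [Subgroup.mul_normal] at h1
    obtain ⟨n, hn, l, hl, rfl⟩ := Set.mem_mul.1 h1
    refine ⟨⟨n, hn⟩, Subtype.ext ?_⟩
    rw [hsmul]
    have h2 : l * a.1 * l⁻¹ = a.1 := by
      have h3 := Subgroup.mem_centralizer_iff.1 hl a.1 ((hE₂ _).2 a.2.2)
      rw [← h3]
      group
    rw [← hc]
    calc n * a.1 * n⁻¹ = n * (l * a.1 * l⁻¹) * n⁻¹ := by rw [h2]
      _ = n * l * a.1 * (n * l)⁻¹ := by group⟩
  haveI : Nontrivial Ω := ⟨⟨⟨x₀, hx₀, hx₀2⟩, ⟨y₀, hy₀, hy₀2⟩, fun h => hne (congrArg Subtype.val h)⟩⟩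
  obtain ⟨g, hg⟩ := exists_derangement (Γ := Γ) (Ω := Ω)
  -- the conjugation by `g` on `S`
  let σ : (S : Subgroup X) ≃* (S : Subgroup X) := (S : Subgroup X).normalizerMonoidHom g
  have hσ : ∀ u : (S : Subgroup X), ((σ u : (S : Subgroup X)) : X) = (g : X) * u * (g : X)⁻¹ := fun _ => rfl
  have hfpf : ∀ u, σ u = u → u = 1 := by
    intro u hu
    by_contra hu1
    have hu1' : (u : X) ≠ 1 := fun h => hu1 (Subtype.ext h)
    obtain ⟨e, he1, he2⟩ := exists_inv_pow (hStwo u u.2) hu1'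
    apply hg ⟨(u : X) ^ e, he1, he2⟩
    apply Subtype.ext
    rw [hsmul]
    change (g : X) * (u : X) ^ e * (g : X)⁻¹ = (u : X) ^ e
    rw [← conj_pow, ← hσ, hu]
  obtain ⟨u, hu⟩ := exists_comm_of_fpf σ hfpf ⟨t, htS⟩
  refine ⟨(u : X)⁻¹, g, ?_⟩
  have h1 := congrArg Subtype.val hu
  change (u : X)⁻¹ * ((σ u : (S : Subgroup X)) : X) = t at h1
  rw [hσ] at h1
  rw [← h1, commutatorElement_def]
  group

end comm

section quot

variable {X : Type*} [Group X] [Finite X]

lemma allConj_quot (R : Subgroup X) [R.Normal] (hR : Odd (Nat.card R)) (hconj : AllConj X) :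
    AllConj (X ⧸ R) := by
  intro a b ha ha2 hb hb2
  obtain ⟨x, hx1, hx2, rfl⟩ := lift_inv R hR a ha ha2
  obtain ⟨y, hy1, hy2, rfl⟩ := lift_inv R hR b hb hb2
  obtain ⟨c, hc⟩ := isConj_iff.1 (hconj x y hx1 hx2 hy1 hy2)
  refine isConj_iff.2 ⟨(c : X ⧸ R), ?_⟩
  rw [← hc, QuotientGroup.mk_mul, QuotientGroup.mk_mul, QuotientGroup.mk_inv]

lemma eq_one_of_mem_odd (R : Subgroup X) (hR : Odd (Nat.card R)) {x : X} (hx : x ∈ R) (hx2 : x * x = 1) :
    x = 1 := by
  by_contra hx1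
  haveI : Fact (Nat.Prime 2) := ⟨Nat.prime_two⟩
  have h0 : x ^ 2 = 1 := by rw [sq]; exact hx2
  have h1 : orderOf (⟨x, hx⟩ : R) = 2 := by
    rw [Subgroup.orderOf_mk]
    exact orderOf_eq_prime h0 hx1
  have h2 := orderOf_dvd_natCard (⟨x, hx⟩ : R)
  rw [h1] at h2
  rw [← Nat.not_even_iff_odd] at hR
  exact hR (even_iff_two_dvd.2 h2)

end quot

section quot2

variable {X : Type u} [Group X] [Finite X]

/-- If a quotient by a normal subgroup of odd order has `2`-length one, `2`-elements centralize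
the involutions. -/
lemma centralize_of_quot (R E : Subgroup X) [R.Normal] [hEn : E.Normal] (hR : Odd (Nat.card R))
    (hE₂ : ∀ x, x ∈ E ↔ x * x = 1) (hconj : AllConj X) (hL : PLengthLE 2 1 (X ⧸ R)) {t z : X}
    (ht : Two t) (hz : z ∈ E) : t * z = z * t := by
  classical
  haveI : Fact (Nat.Prime 2) := ⟨Nat.prime_two⟩
  by_cases hz1 : z = 1
  · rw [hz1, mul_one, one_mul]
  have hz2 : z * z = 1 := (hE₂ z).1 hz
  have hzb : (z : X ⧸ R) ≠ 1 := by
    intro h
    rw [QuotientGroup.eq_one_iff] at h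
    exact hz1 (eq_one_of_mem_odd R hR h hz2)
  have hzb2 : (z : X ⧸ R) * (z : X ⧸ R) = 1 := by
    rw [← QuotientGroup.mk_mul, hz2]
    rfl
  have htb : Two (t : X ⧸ R) := by
    obtain ⟨k, hk⟩ := ht
    refine ⟨k, ?_⟩
    rw [← QuotientGroup.mk_pow, hk]
    rfl
  have h1 := comm_mem_core (allConj_quot R hR hconj) hL hzb hzb2 htb
  set c : X := ⁅z, t⁆ with hc
  have hcE : c ∈ E := by
    have h3 := hEn.conj_mem z⁻¹ (E.inv_mem hz) t
    have h4 : c = z * (t * z⁻¹ * t⁻¹) := by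
      rw [hc, commutatorElement_def]
      group
    rw [h4]
    exact E.mul_mem hz h3
  have hc2 : c * c = 1 := (hE₂ c).1 hcE
  have h2 : ((c : X) : X ⧸ R) ∈ pPrimeCore 2 (X ⧸ R) := by
    have : ((c : X) : X ⧸ R) = ⁅(z : X ⧸ R), (t : X ⧸ R)⁆ := by
      rw [hc, commutatorElement_def, commutatorElement_def]
      simp only [QuotientGroup.mk_mul, QuotientGroup.mk_inv]
    rw [this]
    exact h1
  have hodd : Odd (Nat.card (pPrimeCore 2 (X ⧸ R))) := Nat.coprime_two_right.1 pPrimeCore_coprime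
  have h3 : ((c : X) : X ⧸ R) = 1 := eq_one_of_mem_odd _ hodd h2 (by
    rw [← QuotientGroup.mk_mul, hc2]
    rfl)
  rw [QuotientGroup.eq_one_iff] at h3
  have h4 : c = 1 := eq_one_of_mem_odd R hR h3 hc2
  rw [hc] at h4
  have h5 : Commute z t := commutatorElement_eq_one_iff_commute.1 h4
  exact h5.symm.eq

end quot2

end Cfsg.Agent.Lib.TwoAuto.Reduce
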