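/-
The reduced case: `O(G) = 1`, all involutions conjugate, at least two involutions in a Klein
four-group, then `G / O₂(G)` has odd order.
-/
import Cfsg.Agent.Lib.TwoAuto.Reduce

set_option autoImplicit false
set_option linter.style.haveILetI false
set_option linter.unusedSectionVars false

namespace Cfsg.Agent.Lib.TwoAuto.Reduced

open Cfsg Cfsg.Agent.Lib.TwoAuto.Count Cfsg.Agent.Lib.TwoAuto.Semi Cfsg.Agent.Lib.Core.Basic
  Cfsg.Agent.Lib.Core.PSolvable Cfsg.Agent.Lib.Core.PLength Cfsg.Agent.Lib.TwoAuto.Main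
  Cfsg.Agent.Lib.TwoAuto.Reduce
open scoped commutatorElement Pointwise

universe u

section cc

variable {G : Type*} [Group G] [Finite G]

/-- The key commutator computation. -/
theorem comm_centralizes (N R₀ Y E : Subgroup G) {r : ℕ} [hr : Fact r.Prime] (hr2 : r ≠ 2)
    (hSp : Sp (E.subgroupOf Y)) {y₀ : Y} (hy₀ : (y₀ : G) ∉ E) (hR₀N : R₀ ≤ N)
    (hNR₀ : N ≤ Subgroup.normalizer (R₀ : Set G)) (hR₀r : IsPGroup r R₀)
    (hER₀ : ∀ z ∈ E, ∀ ρ ∈ R₀, ρ * z = z * ρ) (hYN : N ≤ Subgroup.normalizer (Y : Set G))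
    (htrans : ∀ z ∈ E, ∀ z' ∈ E, z ≠ 1 → z' ≠ 1 → ∃ m ∈ N, m * z * m⁻¹ = z')
    {a b ρ₀ : G} (ha : a ∈ N) (hb : b ∈ N) (hρ₀ : ρ₀ ∈ R₀) :
    ⁅⁅a, b⁆, ρ₀⁆ ∈ Subgroup.centralizer (Y : Set G) := by
  classical
  haveI := Fintype.ofFinite Y
  let φ : N →* MulAut Y := Y.normalizerMonoidHom.comp (Subgroup.inclusion hYN)
  have hφ : ∀ (m : N) (u : Y), ((φ m u : Y) : G) = (m : G) * u * (m : G)⁻¹ := fun _ _ => rfl
  let W : Subgroup (MulAut Y) := (R₀.subgroupOf N).map φ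
  have hWmem : ∀ τ ∈ W, ∃ ρ : G, ∃ hρ : ρ ∈ R₀, τ = φ ⟨ρ, hR₀N hρ⟩ := by
    rintro _ ⟨⟨ρ, hρN⟩, hρ, rfl⟩
    exact ⟨ρ, hρ, rfl⟩
  have hrodd : Odd r := hr.out.odd_of_ne_two hr2
  have hWo : ∀ τ ∈ W, ∃ k : ℕ, τ ^ r ^ k = 1 := by
    intro τ hτ
    obtain ⟨ρ, hρ, rfl⟩ := hWmem τ hτ
    obtain ⟨k, hk⟩ := hR₀r ⟨ρ, hρ⟩
    refine ⟨k, ?_⟩
    rw [← map_pow]
    have h1 : (⟨ρ, hR₀N hρ⟩ : N) ^ r ^ k = 1 := by
      apply Subtype.ext
      have h2 := congrArg (Subtype.val : R₀ → G) hk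
      exact h2
    rw [h1, map_one]
  have hWr : IsPGroup r W := by
    intro τ
    obtain ⟨k, hk⟩ := hWo τ τ.2
    exact ⟨k, Subtype.ext hk⟩
  have hWE : ∀ τ ∈ W, ∀ z ∈ E.subgroupOf Y, τ z = z := by
    intro τ hτ z hz
    obtain ⟨ρ, hρ, rfl⟩ := hWmem τ hτ
    apply Subtype.ext
    rw [hφ]
    change ρ * z * ρ⁻¹ = z
    rw [hER₀ z hz ρ hρ]
    group
  have hfibl : ∀ z ∈ E.subgroupOf Y, ∀ z' ∈ E.subgroupOf Y, z ≠ 1 → z' ≠ 1 → fib z ≤ fib z' := by
    intro z hz z' hz' h1 h1'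
    obtain ⟨m, hm, hmz⟩ := htrans z hz z' hz' (fun h => h1 (Subtype.ext h))
      (fun h => h1' (Subtype.ext h))
    unfold fib
    apply Finset.card_le_card_of_injOn (fun u => φ ⟨m, hm⟩ u)
    · intro u hu
      simp only [Finset.coe_filter, Finset.mem_univ, true_and, Set.mem_setOf_eq] at hu ⊢
      rw [← map_mul, hu]
      apply Subtype.ext
      rw [hφ]
      exact hmz
    · intro u _ v _ huv
      exact (φ ⟨m, hm⟩).injective huv
  have hfib : ∀ z ∈ E.subgroupOf Y, ∀ z' ∈ E.subgroupOf Y, z ≠ 1 → z' ≠ 1 → fib z = fib z' :=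
    fun z hz z' hz' h1 h1' => le_antisymm (hfibl z hz z' hz' h1 h1') (hfibl z' hz' z hz h1' h1)
  have hWs : ∀ τ ∈ W, τ ≠ 1 → ∀ u, τ u = u → u ∈ E.subgroupOf Y := by
    intro τ hτ hτ1
    obtain ⟨k, hk⟩ := hWo τ hτ
    exact semi hSp hfib τ (hrodd.pow) hk (hWE τ hτ) hτ1
  haveI hcyc : IsCyclic W := isCyclic_of_semiregular hSp (y₀ := y₀) hy₀ hr2 W hWr hWE hWs
  -- normalizing
  have hnorm : ∀ m : N, φ m ∈ Subgroup.normalizer (W : Set (MulAut Y)) := by
    intro m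
    rw [Subgroup.mem_normalizer_iff]
    have hkey : ∀ (n : N) τ, τ ∈ W → φ n * τ * (φ n)⁻¹ ∈ W := by
      intro n τ hτ
      obtain ⟨ρ, hρ, rfl⟩ := hWmem τ hτ
      rw [← map_inv, ← map_mul, ← map_mul]
      refine ⟨_, ?_, rfl⟩
      have h1 : (n : G) * ρ * (n : G)⁻¹ ∈ R₀ := Subgroup.le_normalizer_iff.1 hNR₀ n n.2 ρ hρ
      exact h1
    intro τ
    constructor
    · exact hkey m τ
    · intro h
      have h1 := hkey m⁻¹ _ h
      rw [map_inv] at h1
      have h2 : (φ m)⁻¹ * (φ m * τ * (φ m)⁻¹) * (φ m)⁻¹⁻¹ = τ := by group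
      rwa [h2] at h1
  have hρW : φ ⟨ρ₀, hR₀N hρ₀⟩ ∈ W := ⟨⟨ρ₀, hR₀N hρ₀⟩, hρ₀, rfl⟩
  have h1 := comm_of_cyclic_normal W (hnorm ⟨a, ha⟩) (hnorm ⟨b, hb⟩) _ hρW
  have h2 : φ ⁅⁅(⟨a, ha⟩ : N), (⟨b, hb⟩ : N)⁆, (⟨ρ₀, hR₀N hρ₀⟩ : N)⁆ = 1 := by
    rw [map_commutatorElement, map_commutatorElement, commutatorElement_def _ (φ ⟨ρ₀, hR₀N hρ₀⟩)]
    rw [h1]
    group
  rw [Subgroup.mem_centralizer_iff]
  intro y hy
  have h3 := congrArg (fun f : MulAut Y => (f ⟨y, hy⟩ : Y)) h2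
  have h4 := congrArg Subtype.val h3
  change ((φ _ _ : Y) : G) = y at h4
  rw [hφ] at h4
  have h5 : ((⁅⁅(⟨a, ha⟩ : N), (⟨b, hb⟩ : N)⁆, (⟨ρ₀, hR₀N hρ₀⟩ : N)⁆ : N) : G) = ⁅⁅a, b⁆, ρ₀⁆ := rfl
  rw [h5] at h4
  rw [mul_inv_eq_iff_eq_mul] at h4
  exact h4.symm

end cc

section red

variable {G : Type u} [Group G] [Finite G]

/-- The reduced case. -/
theorem reduced [hs : Group.IsSolvable G] (hO : pPrimeCore 2 G = ⊥) (hconj : AllConj G) {x₀ y₀ : G}
    (hx₀ : x₀ ≠ 1) (hx₀2 : x₀ * x₀ = 1) (hy₀ : y₀ ≠ 1) (hy₀2 : y₀ * y₀ = 1) (hne : x₀ ≠ y₀)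
    (hxy : x₀ * y₀ = y₀ * x₀)
    (IH : ∀ (X : Type u) [Group X] [Finite X] [Group.IsSolvable X], Nat.card X < Nat.card G → AllConj X →
      (∃ x y : X, x ≠ 1 ∧ x * x = 1 ∧ y ≠ 1 ∧ y * y = 1 ∧ x ≠ y ∧ x * y = y * x) → PLengthLE 2 1 X) :
    (Nat.card (G ⧸ pCore 2 G)).Coprime 2 := by
  classical
  haveI h2f : Fact (Nat.Prime 2) := ⟨Nat.prime_two⟩
  have hG : IsPSolvable 2 G := Cfsg.Agent.Lib.Core.PSolvable2.isPSolvable_of_isSolvable
  set P : Subgroup G := pCore 2 G with hPdef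
  have hPp : IsPGroup 2 P := pCore_isPGroup
  haveI hPn : P.Normal := inferInstance
  have hC : Subgroup.centralizer (P : Set G) ≤ P := centralizer_pCore_le_of_isPSolvable hG hO
  have hP0 : P ≠ ⊥ := by
    intro h
    have h1 : x₀ ∈ P := by
      apply hC
      rw [Subgroup.mem_centralizer_iff]
      intro y hy
      rw [h, SetLike.mem_coe, Subgroup.mem_bot] at hy
      rw [hy, one_mul, mul_one]
    rw [h, Subgroup.mem_bot] at h1
    exact hx₀ h1
  obtain ⟨w, hw, hw1, hwc⟩ := Cfsg.Agent.Lib.Coprime.Complement.exists_ne_one_mem_centralizer hPp hPp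
    Subgroup.le_normalizer hP0
  have hPtwo : ∀ u ∈ P, Two u := by
    intro u hu
    obtain ⟨k, hk⟩ := hPp ⟨u, hu⟩
    exact ⟨k, congrArg Subtype.val hk⟩
  obtain ⟨e, he1, he2⟩ := exists_inv_pow (hPtwo w hw) hw1
  have hZ : ∀ x : G, x ≠ 1 → x * x = 1 → x ∈ P ∧ ∀ v ∈ P, x * v = v * x := by
    intro x hx1 hx2
    obtain ⟨c, hc⟩ := isConj_iff.1 (hconj (w ^ e) x he1 he2 hx1 hx2)
    have h1 : w ^ e ∈ Subgroup.centralizer (P : Set G) := Subgroup.pow_mem _ hwc e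
    have h2 : x ∈ Subgroup.centralizer (P : Set G) := by
      rw [← hc]
      exact (inferInstance : (Subgroup.centralizer (P : Set G)).Normal).conj_mem _ h1 _
    refine ⟨hC h2, ?_⟩
    intro v hv
    exact (Subgroup.mem_centralizer_iff.1 h2 v hv).symm
  have hinvcomm : ∀ a b : G, a * a = 1 → b * b = 1 → a * b = b * a := by
    intro a b ha hb
    by_cases ha1 : a = 1
    · rw [ha1, one_mul, mul_one]
    by_cases hb1 : b = 1
    · rw [hb1, one_mul, mul_one]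
    exact (hZ a ha1 ha).2 b (hZ b hb1 hb).1
  let E : Subgroup G :=
    { carrier := {x | x * x = 1}
      one_mem' := by simp
      mul_mem' := by
        intro a b ha hb
        have ha' : a * a = 1 := ha
        have hb' : b * b = 1 := hb
        change (a * b) * (a * b) = 1
        calc (a * b) * (a * b) = a * (b * a) * b := by group
          _ = a * (a * b) * b := by rw [hinvcomm b a hb' ha']
          _ = (a * a) * (b * b) := by group
          _ = 1 := by rw [ha', hb', one_mul]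
      inv_mem' := by
        intro a ha
        have ha' : a * a = 1 := ha
        change a⁻¹ * a⁻¹ = 1
        have : a⁻¹ = a := inv_eq_of_mul_eq_one_left ha'
        rw [this, ha'] }
  have hE₂ : ∀ x, x ∈ E ↔ x * x = 1 := fun x => Iff.rfl
  haveI hEn : E.Normal := by
    refine ⟨fun n hn g => ?_⟩
    rw [hE₂] at hn ⊢
    have : g * n * g⁻¹ * (g * n * g⁻¹) = g * (n * n) * g⁻¹ := by group
    rw [this, hn]
    group
  have hEP : E ≤ P := by
    intro z hz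
    by_cases hz1 : z = 1
    · rw [hz1]; exact P.one_mem
    exact (hZ z hz1 hz).1
  have hEcP : ∀ z ∈ E, ∀ v ∈ P, z * v = v * z := by
    intro z hz v hv
    by_cases hz1 : z = 1
    · rw [hz1, one_mul, mul_one]
    exact (hZ z hz1 hz).2 v hv
  by_contra hcon
  -- the quotient
  haveI hXs : Group.IsSolvable (G ⧸ P) := inferInstance
  have hX0 : pCore 2 (G ⧸ P) = ⊥ := pCore_quotient_eq_bot
  obtain ⟨r, hrp, hr2, tb, htb, vb, hvb, hne'⟩ := exists_noncommuting hX0 hcon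
  haveI hrf : Fact r.Prime := ⟨hrp⟩
  have hrodd : Odd r := hrp.odd_of_ne_two hr2
  set K : Subgroup G := (pCore r (G ⧸ P)).comap (QuotientGroup.mk' P) with hKdef
  haveI hKn : K.Normal := Subgroup.Normal.comap inferInstance _
  have hPK : P ≤ K := by
    intro x hx
    have : ((x : G) : G ⧸ P) = 1 := (QuotientGroup.eq_one_iff x).2 hx
    change ((x : G) : G ⧸ P) ∈ pCore r (G ⧸ P)
    rw [this]
    exact Subgroup.one_mem _
  have hKmap : K.map (QuotientGroup.mk' P) = pCore r (G ⧸ P) :=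
    Subgroup.map_comap_eq_self_of_surjective QuotientGroup.mk_surjective _
  obtain ⟨nr, hnr⟩ : ∃ n, Nat.card (pCore r (G ⧸ P)) = r ^ n := exists_card_pCore
  have hKq : (Nat.card (K.map (QuotientGroup.mk' P))).Coprime 2 := by
    rw [hKmap, hnr]
    exact Nat.Coprime.pow_left _ (Nat.coprime_two_right.2 hrodd)
  obtain ⟨R, hRK, hPR, hPRd, hRcard, hFr⟩ := exists_complement P K hPp hPK hKq
  set N : Subgroup G := Subgroup.normalizer (R : Set G) with hNdef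
  have hRN : R ≤ N := Subgroup.le_normalizer
  have hRcard' : Nat.card R = r ^ nr := by
    rw [hRcard, hKmap, hnr]
  have hRr : IsPGroup r R := IsPGroup.iff_card.2 ⟨nr, hRcard'⟩
  have hRodd : Odd (Nat.card R) := by
    rw [hRcard']
    exact hrodd.pow
  have hRE0 : ∀ x ∈ R, x ∈ P → x = 1 := by
    intro x hx hx'
    have : x ∈ P ⊓ R := ⟨hx', hx⟩
    rw [hPRd] at this
    exact this
  -- lifting `tb`
  obtain ⟨g, rfl⟩ := QuotientGroup.mk_surjective tb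
  obtain ⟨n, hn, hm⟩ := hFr g
  set m := n⁻¹ * g with hmdef
  have hmg : ((m : G) : G ⧸ P) = (g : G ⧸ P) := by
    rw [hmdef, QuotientGroup.mk_mul, QuotientGroup.mk_inv, (QuotientGroup.eq_one_iff n).2 hn, inv_one, one_mul]
  obtain ⟨k, hk⟩ := htb
  obtain ⟨e₁, he₁, he₁'⟩ := two_lift (QuotientGroup.mk' P) m (k := k) (by
    change ((m : G) : G ⧸ P) ^ 2 ^ k = 1
    rw [hmg, hk])
  set t₀ := m ^ e₁ with ht₀def
  have ht₀N : t₀ ∈ N := Subgroup.pow_mem _ hm e₁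
  have ht₀X : ((t₀ : G) : G ⧸ P) = (g : G ⧸ P) := by
    rw [← hmg]
    exact he₁'
  have ht₀R : ∃ ρ ∈ R, t₀ * ρ ≠ ρ * t₀ := by
    by_contra hall
    push Not at hall
    apply hne'
    obtain ⟨v, rfl⟩ := QuotientGroup.mk_surjective vb
    have hvK : v ∈ K := hvb
    rw [← hPR] at hvK
    rw [← SetLike.mem_coe, Subgroup.normal_mul] at hvK
    obtain ⟨a, ha, b, hb, rfl⟩ := Set.mem_mul.1 hvK
    have h1 : (((a * b : G)) : G ⧸ P) = (b : G ⧸ P) := by
      rw [QuotientGroup.mk_mul, (QuotientGroup.eq_one_iff a).2 ha, one_mul]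
    rw [h1, ← ht₀X, ← QuotientGroup.mk_mul, ← QuotientGroup.mk_mul, hall b hb]
  obtain ⟨ρ₀, hρ₀, hρ₀t⟩ := ht₀R
  have ht₀1 : t₀ ≠ 1 := by
    intro h
    rw [h, one_mul, mul_one] at hρ₀t
    exact hρ₀t rfl
  -- an involution in `N` centralizing `R`
  obtain ⟨e₂, he₂1, he₂2⟩ := exists_inv_pow he₁ ht₀1
  set z₀ := t₀ ^ e₂ with hz₀def
  have hz₀N : z₀ ∈ N := Subgroup.pow_mem _ ht₀N e₂
  have hz₀E : z₀ ∈ E := he₂2
  have hz₀R : ∀ ρ ∈ R, ρ * z₀ = z₀ * ρ := by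
    intro ρ hρ
    have h1 : z₀ * ρ * z₀⁻¹ ∈ R := Subgroup.le_normalizer_iff.1 (le_refl N) z₀ hz₀N ρ hρ
    have h2 : z₀ * ρ * z₀⁻¹ * ρ⁻¹ ∈ R := R.mul_mem h1 (R.inv_mem hρ)
    have h3 : z₀ * ρ * z₀⁻¹ * ρ⁻¹ ∈ E := by
      have h4 := hEn.conj_mem z₀⁻¹ (E.inv_mem hz₀E) ρ
      have h5 : z₀ * ρ * z₀⁻¹ * ρ⁻¹ = z₀ * (ρ * z₀⁻¹ * ρ⁻¹) := by group
      rw [h5]
      exact E.mul_mem hz₀E h4
    have h6 := hRE0 _ h2 (hEP h3)
    have h7 : z₀ * ρ * z₀⁻¹ = ρ := by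
      rw [mul_inv_eq_one] at h6
      exact h6
    rw [mul_inv_eq_iff_eq_mul] at h7
    exact h7.symm
  -- `N` is transitive on the involutions
  have htrans : ∀ z ∈ E, ∀ z' ∈ E, z ≠ 1 → z' ≠ 1 → ∃ m ∈ N, m * z * m⁻¹ = z' := by
    intro z hz z' hz' h1 h1'
    obtain ⟨c, hc⟩ := isConj_iff.1 (hconj z z' h1 hz h1' hz')
    obtain ⟨n', hn', hm'⟩ := hFr c
    refine ⟨n'⁻¹ * c, hm', ?_⟩
    have h2 : n'⁻¹ * c * z * (n'⁻¹ * c)⁻¹ = n'⁻¹ * (c * z * c⁻¹) * n' := by group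
    rw [h2, hc, ← hEcP z' hz' _ (P.inv_mem hn')]
    group
  -- `R` centralizes `E`
  have hRE : ∀ z ∈ E, ∀ ρ ∈ R, ρ * z = z * ρ := by
    intro z hz ρ hρ
    by_cases hz1 : z = 1
    · rw [hz1, one_mul, mul_one]
    obtain ⟨c, hc, hcz⟩ := htrans z₀ hz₀E z hz he₂1 hz1
    have h1 : c⁻¹ * ρ * c ∈ R := by
      have h2 := Subgroup.le_normalizer_iff.1 (le_refl N) c⁻¹ (N.inv_mem hc) ρ hρ
      simpa using h2
    have h3 := hz₀R _ h1
    rw [← hcz]
    calc ρ * (c * z₀ * c⁻¹) = c * ((c⁻¹ * ρ * c) * z₀) * c⁻¹ := by group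
      _ = c * (z₀ * (c⁻¹ * ρ * c)) * c⁻¹ := by rw [h3]
      _ = c * z₀ * c⁻¹ * ρ := by group
  have hEN : E ≤ N := by
    intro z hz
    rw [hNdef, Subgroup.mem_normalizer_iff]
    intro x
    constructor
    · intro hx
      have h1 : z * x = x * z := (hRE z hz x hx).symm
      have h2 : z * x * z⁻¹ = x := by rw [h1]; group
      rw [h2]
      exact hx
    · intro hx
      have h1 := hRE z hz _ hx
      have h2 : z * x * z⁻¹ = x := by
        have h3 : (z * x * z⁻¹) * z = z * x := by group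
        rw [h3] at h1
        exact (mul_left_cancel h1).symm
      rwa [h2] at hx
  -- the group `N`
  let E' : Subgroup N := E.subgroupOf N
  let R' : Subgroup N := R.subgroupOf N
  haveI hR'n : R'.Normal := Subgroup.normal_in_normalizer
  haveI hE'n : E'.Normal := inferInstance
  have hE₂' : ∀ x : N, x ∈ E' ↔ x * x = 1 := by
    intro x
    rw [Subgroup.mem_subgroupOf, hE₂]
    constructor
    · intro h
      exact Subtype.ext h
    · intro h
      exact congrArg Subtype.val h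
  have hconjN : AllConj N := by
    intro x y hx1 hx2 hy1 hy2
    obtain ⟨c, hc, hcx⟩ := htrans x ((hE₂' x).2 hx2) y ((hE₂' y).2 hy2) (fun h => hx1 (Subtype.ext h))
      (fun h => hy1 (Subtype.ext h))
    exact isConj_iff.2 ⟨⟨c, hc⟩, Subtype.ext hcx⟩
  have hR'card : Nat.card R' = Nat.card R :=
    Cfsg.Agent.Lib.Coprime.SchurZassenhaus.card_subgroupOf_of_le hRN
  have hR'odd : Odd (Nat.card R') := by
    rw [hR'card]
    exact hRodd
  have hρ₀1 : ρ₀ ≠ 1 := by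
    intro h
    rw [h, one_mul, mul_one] at hρ₀t
    exact hρ₀t rfl
  have hcard : Nat.card (N ⧸ R') < Nat.card G := by
    have h1 : Nat.card N = Nat.card (N ⧸ R') * Nat.card R' :=
      Subgroup.card_eq_card_quotient_mul_card_subgroup R'
    have h2 : Nat.card N ≤ Nat.card G := Subgroup.card_le_card_group N
    have h3 : Nat.card R' ≠ 1 := by
      intro h
      rw [hR'card] at h
      have h4 := Subgroup.eq_bot_of_card_eq R h
      rw [h4, Subgroup.mem_bot] at hρ₀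
      exact hρ₀1 hρ₀
    have h5 : 0 < Nat.card R' := Nat.card_pos
    have h6 : 0 < Nat.card (N ⧸ R') := Nat.card_pos
    have h7 : 2 ≤ Nat.card R' := by omega
    have h8 : Nat.card (N ⧸ R') * 2 ≤ Nat.card (N ⧸ R') * Nat.card R' := Nat.mul_le_mul_left _ h7
    omega
  have hmemE : ∀ x : N, x ∈ R' → (x : G) * x = 1 → (x : G) = 1 := by
    intro x hx hx2
    exact hRE0 x hx (hEP hx2)
  have htwoX₁ : ∃ x y : N ⧸ R', x ≠ 1 ∧ x * x = 1 ∧ y ≠ 1 ∧ y * y = 1 ∧ x ≠ y ∧ x * y = y * x := by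
    have hxN : x₀ ∈ N := hEN hx₀2
    have hyN : y₀ ∈ N := hEN hy₀2
    refine ⟨((⟨x₀, hxN⟩ : N) : N ⧸ R'), ((⟨y₀, hyN⟩ : N) : N ⧸ R'), ?_, ?_, ?_, ?_, ?_, ?_⟩
    · intro h
      rw [QuotientGroup.eq_one_iff] at h
      exact hx₀ (hmemE _ h hx₀2)
    · rw [← QuotientGroup.mk_mul]
      have : (⟨x₀, hxN⟩ : N) * ⟨x₀, hxN⟩ = 1 := Subtype.ext hx₀2
      rw [this]
      rfl
    · intro h
      rw [QuotientGroup.eq_one_iff] at h
      exact hy₀ (hmemE _ h hy₀2)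
    · rw [← QuotientGroup.mk_mul]
      have : (⟨y₀, hyN⟩ : N) * ⟨y₀, hyN⟩ = 1 := Subtype.ext hy₀2
      rw [this]
      rfl
    · intro h
      rw [QuotientGroup.eq] at h
      have h1 : (x₀⁻¹ * y₀) * (x₀⁻¹ * y₀) = 1 := E.mul_mem (E.inv_mem hx₀2) hy₀2
      have h2 := hmemE _ h h1
      apply hne
      have h3 : x₀⁻¹ * y₀ = 1 := h2
      rw [inv_mul_eq_one] at h3
      exact h3
    · rw [← QuotientGroup.mk_mul, ← QuotientGroup.mk_mul]
      have : (⟨x₀, hxN⟩ : N) * ⟨y₀, hyN⟩ = ⟨y₀, hyN⟩ * ⟨x₀, hxN⟩ := Subtype.ext hxy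
      rw [this]
  have hL : PLengthLE 2 1 (N ⧸ R') := IH (N ⧸ R') hcard (allConj_quot R' hR'odd hconjN) htwoX₁
  have hcentN : ∀ t : N, Two t → ∀ z ∈ E', t * z = z * t := fun t ht z hz =>
    centralize_of_quot R' E' hR'odd hE₂' hconjN hL ht hz
  -- every `2`-element of `N` is a commutator
  have hcommN : ∀ t : N, Two t → ∃ u g : N, t = ⁅u, g⁆ := by
    intro t ht
    refine exists_comm_of_two E' hE₂' hconjN (x₀ := ⟨x₀, hEN hx₀2⟩) (y₀ := ⟨y₀, hEN hy₀2⟩) ?_ ?_ ?_ ?_ ?_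
      hcentN ht
    · exact fun h => hx₀ (congrArg Subtype.val h)
    · exact Subtype.ext hx₀2
    · exact fun h => hy₀ (congrArg Subtype.val h)
    · exact Subtype.ext hy₀2
    · exact fun h => hne (congrArg Subtype.val h)
  -- the minimal subgroup of `R`
  have htwoN : ∀ t : G, Two t → ∀ ht : t ∈ N, Two (⟨t, ht⟩ : N) := by
    rintro t ⟨k, hk⟩ ht
    exact ⟨k, Subtype.ext hk⟩
  let RR : Set (Subgroup G) := {R₁ | R₁ ≤ R ∧ N ≤ Subgroup.normalizer (R₁ : Set G) ∧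
    ∃ t ∈ N, Two t ∧ ∃ ρ ∈ R₁, t * ρ ≠ ρ * t}
  have hRR : R ∈ RR := ⟨le_rfl, le_rfl, t₀, ht₀N, he₁, ρ₀, hρ₀, hρ₀t⟩
  obtain ⟨R₀, hR₀m⟩ := (Set.toFinite RR).exists_minimal ⟨R, hRR⟩
  obtain ⟨⟨hR₀R, hNR₀, t₁, ht₁N, ht₁2, ρ₁, hρ₁, hρ₁t⟩, hR₀min⟩ := hR₀m
  have hR₀N : R₀ ≤ N := hR₀R.trans hRN
  have hR₀r : IsPGroup r R₀ := hRr.to_le hR₀R
  have hR₀odd : Odd (Nat.card R₀) := by
    obtain ⟨a, ha⟩ := IsPGroup.iff_card.1 hR₀r
    rw [ha]
    exact hrodd.pow
  have hR₀ne : R₀ ≠ ⊥ := by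
    intro h
    rw [h, Subgroup.mem_bot] at hρ₁
    rw [hρ₁, mul_one, one_mul] at hρ₁t
    exact hρ₁t rfl
  -- `R₀` is generated by commutators with `2`-elements of `N`
  let R₁ : Subgroup G := Subgroup.closure {c | ∃ ρ ∈ R₀, ∃ t ∈ N, Two t ∧ c = ⁅ρ, t⁆}
  have hcR₀ : ∀ ρ ∈ R₀, ∀ t ∈ N, ⁅ρ, t⁆ ∈ R₀ := by
    intro ρ hρ t ht
    rw [commutatorElement_def, show ρ * t * ρ⁻¹ * t⁻¹ = ρ * (t * ρ⁻¹ * t⁻¹) by group]
    apply R₀.mul_mem hρ
    have h1 := Subgroup.le_normalizer_iff.1 hNR₀ t ht _ (R₀.inv_mem hρ)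
    exact h1
  have hR₁R₀ : R₁ ≤ R₀ := by
    rw [Subgroup.closure_le]
    rintro _ ⟨ρ, hρ, t, ht, -, rfl⟩
    exact hcR₀ ρ hρ t ht
  have hR₁N : N ≤ Subgroup.normalizer (R₁ : Set G) := by
    rw [Subgroup.le_normalizer_iff]
    intro n hn x hx
    induction hx using Subgroup.closure_induction with
    | mem x hx =>
      obtain ⟨ρ, hρ, t, ht, ht2, rfl⟩ := hx
      apply Subgroup.subset_closure
      refine ⟨n * ρ * n⁻¹, Subgroup.le_normalizer_iff.1 hNR₀ n hn ρ hρ, n * t * n⁻¹,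
        N.mul_mem (N.mul_mem hn ht) (N.inv_mem hn), ?_, ?_⟩
      · obtain ⟨k, hk⟩ := ht2
        refine ⟨k, ?_⟩
        rw [conj_pow, hk]
        group
      · rw [commutatorElement_def, commutatorElement_def]
        group
    | one => simp
    | mul a b _ _ ha hb =>
      have h3 : n * (a * b) * n⁻¹ = (n * a * n⁻¹) * (n * b * n⁻¹) := by group
      rw [h3]
      exact R₁.mul_mem ha hb
    | inv a _ ha =>
      have h3 : n * a⁻¹ * n⁻¹ = (n * a * n⁻¹)⁻¹ := by group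
      rw [h3]
      exact R₁.inv_mem ha
  have hR₀R₁ : R₀ ≤ R₁ := by
    by_cases hmem : R₁ ∈ RR
    · exact hR₀min hmem hR₁R₀
    · exfalso
      have hall : ∀ t ∈ N, Two t → ∀ ρ ∈ R₁, t * ρ = ρ * t := by
        intro t ht ht2 ρ hρ
        by_contra hc
        exact hmem ⟨hR₁R₀.trans hR₀R, hR₁N, t, ht, ht2, ρ, hρ, hc⟩
      have hc1 : ⁅ρ₁, t₁⁆ ∈ R₁ := Subgroup.subset_closure ⟨ρ₁, hρ₁, t₁, ht₁N, ht₁2, rfl⟩
      have hc2 := hall t₁ ht₁N ht₁2 _ hc1
      obtain ⟨k, hk⟩ := ht₁2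
      obtain ⟨a, ha⟩ := IsPGroup.iff_card.1 hR₀r
      have hc3 : ⁅ρ₁, t₁⁆ ^ (Nat.card R₀) = 1 := by
        have h1 := pow_card_eq_one' (x := (⟨⁅ρ₁, t₁⁆, hR₁R₀ hc1⟩ : R₀))
        exact congrArg Subtype.val h1
      have hc4 := comm_trivial hk hR₀odd hc3 hc2
      apply hρ₁t
      have hc5 : Commute ρ₁ t₁ := commutatorElement_eq_one_iff_commute.1 hc4
      exact hc5.symm.eq
  -- the minimal subgroup of `P`
  let YY : Set (Subgroup G) := {Y₁ | Y₁ ≤ P ∧ N ≤ Subgroup.normalizer (Y₁ : Set G) ∧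
    ¬ R₀ ≤ Subgroup.centralizer (Y₁ : Set G)}
  have hYY : P ∈ YY := by
    refine ⟨le_rfl, ?_, ?_⟩
    · rw [Subgroup.normalizer_eq_top_iff.mpr hPn]
      exact le_top
    · intro h
      apply hR₀ne
      rw [eq_bot_iff]
      intro x hx
      exact hRE0 x (hR₀R hx) (hC (h hx))
  obtain ⟨Y, hYm⟩ := (Set.toFinite YY).exists_minimal ⟨P, hYY⟩
  obtain ⟨⟨hYP, hYN, hYR⟩, hYmin⟩ := hYm
  have hYmin' : ∀ Y' : Subgroup G, Y' ≤ Y → N ≤ Subgroup.normalizer (Y' : Set G) →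
      ¬ R₀ ≤ Subgroup.centralizer (Y' : Set G) → Y' = Y := by
    intro Y' h1 h2 h3
    exact le_antisymm h1 (hYmin ⟨h1.trans hYP, h2, h3⟩ h1)
  obtain ⟨hSp, y₁, hy₁⟩ := special_of_minimal P N R₀ Y E hPp hE₂ hEcP hR₀N hNR₀ hR₀odd
    (fun z hz ρ hρ => hRE z hz ρ (hR₀R hρ)) hYP hYN hYR hYmin'
  -- the contradiction
  apply hYR
  have hfin : R₁ ≤ Subgroup.centralizer (Y : Set G) := by
    rw [Subgroup.closure_le]
    rintro _ ⟨ρ, hρ, t, ht, ht2, rfl⟩
    obtain ⟨u, g', hug⟩ := hcommN ⟨t, ht⟩ (htwoN t ht2 ht)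
    have h1 : t = ⁅(u : G), (g' : G)⁆ := congrArg Subtype.val hug
    have h2 := comm_centralizes N R₀ Y E hr2 hSp hy₁ hR₀N hNR₀ hR₀r
      (fun z hz ρ hρ => hRE z hz ρ (hR₀R hρ)) hYN htrans u.2 g'.2 hρ
    rw [← h1] at h2
    have h3 : ⁅ρ, t⁆ = ⁅t, ρ⁆⁻¹ := (commutatorElement_inv t ρ).symm
    rw [h3]
    exact Subgroup.inv_mem _ h2
  exact hR₀R₁.trans hfin

end red

section main

/-- Images of a Klein four group modulo a normal subgroup of odd order. -/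
lemma two_quot {X : Type*} [Group X] [Finite X] (M : Subgroup X) [M.Normal] (hM : Odd (Nat.card M)) {x y : X}
    (hx1 : x ≠ 1) (hx2 : x * x = 1) (hy1 : y ≠ 1) (hy2 : y * y = 1) (hne : x ≠ y) (hxy : x * y = y * x) :
    ∃ a b : X ⧸ M, a ≠ 1 ∧ a * a = 1 ∧ b ≠ 1 ∧ b * b = 1 ∧ a ≠ b ∧ a * b = b * a := by
  refine ⟨(x : X ⧸ M), (y : X ⧸ M), ?_, ?_, ?_, ?_, ?_, ?_⟩
  · intro h
    rw [QuotientGroup.eq_one_iff] at h
    exact hx1 (eq_one_of_mem_odd M hM h hx2)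
  · rw [← QuotientGroup.mk_mul, hx2]
    rfl
  · intro h
    rw [QuotientGroup.eq_one_iff] at h
    exact hy1 (eq_one_of_mem_odd M hM h hy2)
  · rw [← QuotientGroup.mk_mul, hy2]
    rfl
  · intro h
    rw [QuotientGroup.eq] at h
    have h1 : (x⁻¹ * y) * (x⁻¹ * y) = 1 := by
      have hxi : x⁻¹ = x := inv_eq_of_mul_eq_one_left hx2
      rw [hxi]
      calc (x * y) * (x * y) = x * (y * x) * y := by group
        _ = x * (x * y) * y := by rw [hxy]
        _ = (x * x) * (y * y) := by group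
        _ = 1 := by rw [hx2, hy2, one_mul]
    have h2 := eq_one_of_mem_odd M hM h h1
    rw [inv_mul_eq_one] at h2
    exact hne h2
  · rw [← QuotientGroup.mk_mul, ← QuotientGroup.mk_mul, hxy]

/-- Main theorem of the section: strong induction. -/
theorem main_aux (n : ℕ) : ∀ (G : Type u) [Group G] [Finite G] [Group.IsSolvable G], Nat.card G = n → AllConj G →
    (∃ x y : G, x ≠ 1 ∧ x * x = 1 ∧ y ≠ 1 ∧ y * y = 1 ∧ x ≠ y ∧ x * y = y * x) → PLengthLE 2 1 G := by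
  induction n using Nat.strong_induction_on with
  | _ n ih =>
    intro G _ _ _ hn hconj hex
    obtain ⟨x, y, hx1, hx2, hy1, hy2, hne, hxy⟩ := hex
    haveI h2f : Fact (Nat.Prime 2) := ⟨Nat.prime_two⟩
    by_cases hO : pPrimeCore 2 G = ⊥
    · have h := reduced hO hconj hx1 hx2 hy1 hy2 hne hxy
        (fun X _ _ _ hX h1 h2 => ih _ (hn ▸ hX) X rfl h1 h2)
      have := PLengthLE.of_ker (p := 2) (a := 1) (b := 0) (QuotientGroup.mk' (pCore 2 G))
        QuotientGroup.mk_surjective (by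
          rw [QuotientGroup.ker_mk']
          exact pLengthLE_one_of_isPGroup pCore_isPGroup) (pLengthLE_zero_iff.2 h)
      simpa using this
    · set O : Subgroup G := pPrimeCore 2 G with hOdef
      have hOc : (Nat.card O).Coprime 2 := pPrimeCore_coprime
      have hOodd : Odd (Nat.card O) := Nat.coprime_two_right.1 hOc
      have hcard : Nat.card (G ⧸ O) < n := by
        rw [← hn]
        have h1 : Nat.card G = Nat.card (G ⧸ O) * Nat.card O :=
          Subgroup.card_eq_card_quotient_mul_card_subgroup O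
        have h3 : Nat.card O ≠ 1 := fun h => hO (Subgroup.eq_bot_of_card_eq O h)
        have h5 : 0 < Nat.card O := Nat.card_pos
        have h6 : 0 < Nat.card (G ⧸ O) := Nat.card_pos
        have h7 : 2 ≤ Nat.card O := by omega
        have h8 : Nat.card (G ⧸ O) * 2 ≤ Nat.card (G ⧸ O) * Nat.card O := Nat.mul_le_mul_left _ h7
        omega
      have h1 := ih _ hcard (G ⧸ O) rfl (allConj_quot O hOodd hconj)
        (two_quot O hOodd hx1 hx2 hy1 hy2 hne hxy)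
      have := PLengthLE.of_ker (p := 2) (a := 0) (b := 1) (QuotientGroup.mk' O)
        QuotientGroup.mk_surjective (by
          rw [QuotientGroup.ker_mk', pLengthLE_zero_iff]
          exact hOc) h1
      simpa using this

/-- **Theorem**: a solvable group with all involutions conjugate and a Klein four subgroup has
`2`-length at most `1`. -/
theorem main {G : Type u} [Group G] [Finite G] [Group.IsSolvable G] (hconj : AllConj G)
    (hex : ∃ x y : G, x ≠ 1 ∧ x * x = 1 ∧ y ≠ 1 ∧ y * y = 1 ∧ x ≠ y ∧ x * y = y * x) : PLengthLE 2 1 G :=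
  main_aux _ G rfl hconj hex

/-- Involutions commute when `O(G) = 1`. -/
lemma inv_comm_of_reduced {G : Type u} [Group G] [Finite G] [hs : Group.IsSolvable G] (hO : pPrimeCore 2 G = ⊥)
    (hconj : AllConj G) {a b : G} (ha1 : a ≠ 1) (ha : a * a = 1) (hb1 : b ≠ 1) (hb : b * b = 1) : a * b = b * a := by
  classical
  haveI h2f : Fact (Nat.Prime 2) := ⟨Nat.prime_two⟩
  have hG : IsPSolvable 2 G := Cfsg.Agent.Lib.Core.PSolvable2.isPSolvable_of_isSolvable
  set P : Subgroup G := pCore 2 G with hPdef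
  have hPp : IsPGroup 2 P := pCore_isPGroup
  haveI hPn : P.Normal := inferInstance
  have hC : Subgroup.centralizer (P : Set G) ≤ P := centralizer_pCore_le_of_isPSolvable hG hO
  have hP0 : P ≠ ⊥ := by
    intro h
    have h1 : a ∈ P := by
      apply hC
      rw [Subgroup.mem_centralizer_iff]
      intro y hy
      rw [h, SetLike.mem_coe, Subgroup.mem_bot] at hy
      rw [hy, one_mul, mul_one]
    rw [h, Subgroup.mem_bot] at h1
    exact ha1 h1
  obtain ⟨w, hw, hw1, hwc⟩ := Cfsg.Agent.Lib.Coprime.Complement.exists_ne_one_mem_centralizer hPp hPp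
    Subgroup.le_normalizer hP0
  have hPtwo : ∀ u ∈ P, Two u := by
    intro u hu
    obtain ⟨k, hk⟩ := hPp ⟨u, hu⟩
    exact ⟨k, congrArg Subtype.val hk⟩
  obtain ⟨e, he1, he2⟩ := exists_inv_pow (hPtwo w hw) hw1
  have hZ : ∀ x : G, x ≠ 1 → x * x = 1 → x ∈ P ∧ ∀ v ∈ P, x * v = v * x := by
    intro x hx1 hx2
    obtain ⟨c, hc⟩ := isConj_iff.1 (hconj (w ^ e) x he1 he2 hx1 hx2)
    have h1 : w ^ e ∈ Subgroup.centralizer (P : Set G) := Subgroup.pow_mem _ hwc e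
    have h2 : x ∈ Subgroup.centralizer (P : Set G) := by
      rw [← hc]
      exact (inferInstance : (Subgroup.centralizer (P : Set G)).Normal).conj_mem _ h1 _
    refine ⟨hC h2, ?_⟩
    intro v hv
    exact (Subgroup.mem_centralizer_iff.1 h2 v hv).symm
  exact (hZ a ha1 ha).2 b (hZ b hb1 hb).1

/-- All involutions in a Sylow `2`-subgroup: the `2`-length theorem without the commutation hypothesis. -/
theorem main' {G : Type u} [Group G] [Finite G] [Group.IsSolvable G] (hconj : AllConj G) (S : Sylow 2 G) {x y : G}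
    (hxS : x ∈ (S : Subgroup G)) (hyS : y ∈ (S : Subgroup G)) (hne : x ≠ y) (hx1 : x ≠ 1) (hx2 : x * x = 1)
    (hy1 : y ≠ 1) (hy2 : y * y = 1) : PLengthLE 2 1 G := by
  classical
  haveI h2f : Fact (Nat.Prime 2) := ⟨Nat.prime_two⟩
  set O : Subgroup G := pPrimeCore 2 G with hOdef
  have hOc : (Nat.card O).Coprime 2 := pPrimeCore_coprime
  have hOodd : Odd (Nat.card O) := Nat.coprime_two_right.1 hOc
  have hSO : ∀ u ∈ (S : Subgroup G), u ∈ O → u = 1 := by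
    intro u hu hu'
    have h1 : (⟨u, hu'⟩ : O) = 1 := by
      obtain ⟨k, hk⟩ := S.isPGroup' ⟨u, hu⟩
      have h2 : (⟨u, hu'⟩ : O) ^ 2 ^ k = 1 := by
        apply Subtype.ext
        have h3 : u ^ 2 ^ k = 1 := congrArg Subtype.val hk
        exact h3
      have h3 := orderOf_dvd_of_pow_eq_one h2
      have h4 : Nat.Coprime (orderOf (⟨u, hu'⟩ : O)) (2 ^ k) :=
        Nat.Coprime.pow_right _ (Nat.Coprime.coprime_dvd_left (orderOf_dvd_natCard _) hOc)
      exact orderOf_eq_one_iff.1 (Nat.Coprime.eq_one_of_dvd h4 h3)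
    exact congrArg Subtype.val h1
  have hxb : (x : G ⧸ O) ≠ 1 := by
    intro h
    rw [QuotientGroup.eq_one_iff] at h
    exact hx1 (hSO x hxS h)
  have hyb : (y : G ⧸ O) ≠ 1 := by
    intro h
    rw [QuotientGroup.eq_one_iff] at h
    exact hy1 (hSO y hyS h)
  have hxb2 : (x : G ⧸ O) * (x : G ⧸ O) = 1 := by
    rw [← QuotientGroup.mk_mul, hx2]
    rfl
  have hyb2 : (y : G ⧸ O) * (y : G ⧸ O) = 1 := by
    rw [← QuotientGroup.mk_mul, hy2]
    rfl
  have hneb : (x : G ⧸ O) ≠ (y : G ⧸ O) := by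
    intro h
    rw [QuotientGroup.eq] at h
    have h1 := hSO _ (Subgroup.mul_mem _ (Subgroup.inv_mem _ hxS) hyS) h
    rw [inv_mul_eq_one] at h1
    exact hne h1
  have hconj' := allConj_quot O hOodd hconj
  have h1 : PLengthLE 2 1 (G ⧸ O) := main hconj' ⟨_, _, hxb, hxb2, hyb, hyb2, hneb,
    inv_comm_of_reduced pPrimeCore_quotient_eq_bot hconj' hxb hxb2 hyb hyb2⟩
  have := PLengthLE.of_ker (p := 2) (a := 0) (b := 1) (QuotientGroup.mk' O)
    QuotientGroup.mk_surjective (by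
      rw [QuotientGroup.ker_mk', pLengthLE_zero_iff]
      exact hOc) h1
  simpa using this

end main

section homo

/-- A finite abelian `2`-group whose automorphism group is transitive on involutions is homocyclic. -/
theorem homocyclic_of_transitive {A : Type*} [Group A] [Finite A] (hcomm : ∀ a b : A, a * b = b * a)
    (h2 : IsPGroup 2 A)
    (hY : ∀ x y : A, x ≠ 1 → x ^ 2 = 1 → y ≠ 1 → y ^ 2 = 1 → ∃ a : MulAut A, a x = y) :
    ∃ m r : ℕ, Nonempty (A ≃* (Fin r → Multiplicative (ZMod (2 ^ m)))) := by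
  classical
  haveI h2f : Fact (Nat.Prime 2) := ⟨Nat.prime_two⟩
  letI : CommGroup A := { (inferInstance : Group A) with mul_comm := hcomm }
  obtain ⟨ι, hι, n, hn, ⟨φ⟩⟩ := CommGroup.equiv_prod_multiplicative_zmod_of_finite A
  -- the basis elements
  let g : ∀ i, Multiplicative (ZMod (n i)) := fun i => Multiplicative.ofAdd (1 : ZMod (n i))
  have hgo : ∀ i, orderOf (g i) = n i := by
    intro i
    rw [orderOf_ofAdd_eq_addOrderOf, ZMod.addOrderOf_one]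
  let b : ι → A := fun i => φ.symm (Pi.mulSingle i (g i))
  have hbo : ∀ i, orderOf (b i) = n i := by
    intro i
    rw [← hgo i]
    have h1 : orderOf (b i) = orderOf (Pi.mulSingle i (g i) : ∀ j, Multiplicative (ZMod (n j))) :=
      MulEquiv.orderOf_eq φ.symm (Pi.mulSingle i (g i))
    rw [h1]
    have hinj : Function.Injective (MonoidHom.mulSingle (fun j => Multiplicative (ZMod (n j))) i) := by
      intro a c hac
      have h3 := congrFun hac i
      simpa using h3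
    exact orderOf_injective (MonoidHom.mulSingle (fun j => Multiplicative (ZMod (n j))) i) hinj (g i)
  have hm : ∀ i, ∃ m : ℕ, n i = 2 ^ (m + 1) := by
    intro i
    obtain ⟨k, hk⟩ := IsPGroup.iff_orderOf.1 h2 (b i)
    rw [hbo] at hk
    rcases k with _ | k
    · have := hn i
      rw [hk] at this
      simp at this
    · exact ⟨k, hk⟩
  choose m hm using hm
  -- the maximum
  have hpowk : ∀ (k : ℕ) (x : Multiplicative (ZMod k)), x ^ k = 1 := by
    intro k x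
    change Multiplicative.ofAdd (k • Multiplicative.toAdd x) = 1
    rw [nsmul_eq_mul, ZMod.natCast_self, zero_mul]
    rfl
  obtain ⟨M, hM⟩ : ∃ M : ℕ, ∀ j, n j = 2 ^ M := by
    by_cases hemp : IsEmpty ι
    · exact ⟨0, fun j => hemp.elim j⟩
    rw [not_isEmpty_iff] at hemp
    obtain ⟨i₀, hi₀⟩ := Finite.exists_max m
    have hall : ∀ j, m j = m i₀ := by
      intro j
      by_contra hj
      have hlt : m j < m i₀ := lt_of_le_of_ne (hi₀ j) hj
      -- the involutions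
      set x₀ : A := b i₀ ^ 2 ^ m i₀ with hx₀
      set y₀ : A := b j ^ 2 ^ m j with hy₀
      have hx₀1 : x₀ ≠ 1 := by
        apply pow_ne_one_of_lt_orderOf (by positivity)
        rw [hbo, hm]
        exact Nat.pow_lt_pow_right (by norm_num) (Nat.lt_succ_self _)
      have hy₀1 : y₀ ≠ 1 := by
        apply pow_ne_one_of_lt_orderOf (by positivity)
        rw [hbo, hm]
        exact Nat.pow_lt_pow_right (by norm_num) (Nat.lt_succ_self _)
      have hx₀2 : x₀ ^ 2 = 1 := by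
        rw [hx₀, ← pow_mul, ← pow_succ, ← hm, ← hbo]
        exact pow_orderOf_eq_one _
      have hy₀2 : y₀ ^ 2 = 1 := by
        rw [hy₀, ← pow_mul, ← pow_succ, ← hm, ← hbo]
        exact pow_orderOf_eq_one _
      obtain ⟨a, ha⟩ := hY x₀ y₀ hx₀1 hx₀2 hy₀1 hy₀2
      -- the `j`-th component
      have h1 : y₀ = (a (b i₀)) ^ 2 ^ m i₀ := by
        rw [← ha, hx₀, map_pow]
      have h3 : (φ y₀) j = ((φ (a (b i₀))) j) ^ 2 ^ m i₀ := by
        rw [h1, map_pow, Pi.pow_apply]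
      have h4 : ((φ (a (b i₀))) j) ^ 2 ^ m i₀ = 1 := by
        have h5 := hpowk (n j) ((φ (a (b i₀))) j)
        obtain ⟨c, hc⟩ : n j ∣ 2 ^ m i₀ := by
          rw [hm]
          exact Nat.pow_dvd_pow 2 hlt
        rw [hc, pow_mul, h5, one_pow]
      have h6 : (φ y₀) j = g j ^ 2 ^ m j := by
        rw [hy₀, map_pow, Pi.pow_apply]
        have h7 : φ (b j) = Pi.mulSingle j (g j) := φ.apply_symm_apply _
        rw [h7, Pi.mulSingle_eq_same]
      have h8 : g j ^ 2 ^ m j ≠ 1 := by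
        apply pow_ne_one_of_lt_orderOf (by positivity)
        rw [hgo, hm]
        exact Nat.pow_lt_pow_right (by norm_num) (Nat.lt_succ_self _)
      apply h8
      rw [← h6, h3, h4]
    refine ⟨m i₀ + 1, fun j => ?_⟩
    rw [hm, hall]
  clear_value g b
  obtain rfl : n = fun _ => 2 ^ M := funext hM
  exact ⟨M, Fintype.card ι, ⟨φ.trans (MulEquiv.arrowCongr (Fintype.equivFin ι) (MulEquiv.refl _))⟩⟩

end homo

end Cfsg.Agent.Lib.TwoAuto.Reduced
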